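import Cfsg.Agent.Lib.Helper12.HHB.Defs

/-!
# Rung COMM of the ladder HHB: the trichotomy for the commutant
-/

set_option autoImplicit false

namespace Cfsg.Agent.Lib.Helper15.HHB

open Module Cfsg.Agent.Lib.Helper12.HHB

variable {K : Type*} [Field K] {V : Type*} [AddCommGroup V] [Module K V]

theorem mem_stab_eigenspace (T : Module.End K V) (μ : K) (u : (Module.End K V)ˣ)
    (h : Commute T (u : Module.End K V)) : u ∈ stab (Module.End.eigenspace T μ) := by
  have key : ∀ (a : Module.End K V), Commute T a →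
      ∀ w ∈ Module.End.eigenspace T μ, a w ∈ Module.End.eigenspace T μ := by
    intro a ha w hw
    rw [Module.End.mem_eigenspace_iff] at hw ⊢
    have h1 : T (a w) = a (T w) := by
      have := congrArg (fun f : Module.End K V => f w) ha.eq
      simpa using this
    rw [h1, hw, map_smul]
  exact ⟨key _ h, key _ h.units_inv_right⟩

theorem alt2_of_fixed [IsAlgClosed K] [FiniteDimensional K V] [Nontrivial V]
    (Q : Subgroup (Module.End K V)ˣ) (X : (Module.End K V)ˣ) (T : Module.End K V)
    (hTQ : ∀ g ∈ Q, T * ((g : (Module.End K V)ˣ) : Module.End K V) = (g : Module.End K V) * T)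
    (hTX : (X : Module.End K V) * T = T * (X : Module.End K V))
    (hns : ¬ ∃ c : K, T = c • 1) :
    ∃ W : Submodule K V, W ≠ ⊥ ∧ W ≠ ⊤ ∧ Q ≤ stab W ∧ X ∈ stab W := by
  obtain ⟨μ, hμ⟩ := Module.End.exists_eigenvalue T
  refine ⟨Module.End.eigenspace T μ, hμ, ?_, ?_, ?_⟩
  · intro htop
    apply hns
    refine ⟨μ, ?_⟩
    ext v
    have : v ∈ Module.End.eigenspace T μ := htop ▸ Submodule.mem_top
    simpa using Module.End.mem_eigenspace_iff.1 this
  · intro g hg
    exact mem_stab_eigenspace T μ g (hTQ g hg)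
  · exact mem_stab_eigenspace T μ X hTX.symm

theorem comm_trichotomy {p : ℕ} [Fact p.Prime] [CharP K p] [IsAlgClosed K] [FiniteDimensional K V]
    [Nontrivial V]
    (Q : Subgroup (Module.End K V)ˣ) (X : (Module.End K V)ˣ) (m : ℕ)
    (hnorm : ∀ g ∈ Q, X * g * X⁻¹ ∈ Q) (hnorm' : ∀ g ∈ Q, X⁻¹ * g * X ∈ Q) (hord : X ^ p ^ m = 1) :
    ScalarComm Q ∨
    (∃ W : Submodule K V, W ≠ ⊥ ∧ W ≠ ⊤ ∧ Q ≤ stab W ∧ X ∈ stab W) ∨
    (∃ (T : Module.End K V) (c μ : K), c ≠ 0 ∧
      (∀ g ∈ Q, T * ((g : (Module.End K V)ˣ) : Module.End K V) = (g : Module.End K V) * T) ∧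
      (X : Module.End K V) * T = (T + c • 1) * (X : Module.End K V) ∧
        T ^ p - c ^ (p - 1) • T = μ • 1) := by
  classical
  by_cases hC : ScalarComm Q
  · exact Or.inl hC
  right
  unfold ScalarComm at hC
  push Not at hC
  obtain ⟨T0, hT0Q, hT0ns⟩ := hC
  obtain ⟨x, hx⟩ : ∃ x : Module.End K V, x = (X : Module.End K V) := ⟨_, rfl⟩
  obtain ⟨xi, hxi⟩ : ∃ xi : Module.End K V, xi = ((X⁻¹ : (Module.End K V)ˣ) : Module.End K V) :=
    ⟨_, rfl⟩
  have hxxi : x * xi = 1 := by rw [hx, hxi]; exact Units.mul_inv X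
  have hxix : xi * x = 1 := by rw [hx, hxi]; exact Units.inv_mul X
  rw [← hx]
  let σ : Module.End K (Module.End K V) := LinearMap.mulLeft K x * LinearMap.mulRight K xi
  have hσ : ∀ T, σ T = x * T * xi := fun T => by simp [σ, mul_assoc]
  have hσpow : ∀ k : ℕ, σ ^ k = LinearMap.mulLeft K (x ^ k) * LinearMap.mulRight K (xi ^ k) := by
    intro k
    rw [(LinearMap.commute_mulLeft_right (R := K) x xi).mul_pow, LinearMap.pow_mulLeft,
      LinearMap.pow_mulRight]
  have hσord : σ ^ p ^ m = 1 := by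
    rw [hσpow]
    have h1 : x ^ p ^ m = 1 := by rw [hx, ← Units.val_pow_eq_pow_val, hord]; rfl
    have h2 : xi ^ p ^ m = 1 := by rw [hxi, ← Units.val_pow_eq_pow_val, inv_pow, hord]; simp
    rw [h1, h2]
    ext T
    simp
  have : CharP (Module.End K (Module.End K V)) p :=
    charP_of_injective_algebraMap (algebraMap K _).injective p
  have : CharP (Module.End K V) p :=
    charP_of_injective_algebraMap (algebraMap K _).injective p
  have hδ : (σ - 1) ^ p ^ m = 0 := by
    rw [sub_pow_char_pow_of_commute p m (Commute.one_right σ), hσord, one_pow, sub_self]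
  have hE : ∀ T : Module.End K V,
      (∀ g ∈ Q, T * ((g : (Module.End K V)ˣ) : Module.End K V) = (g : Module.End K V) * T) →
      (∀ g ∈ Q, ((σ - 1) T) * ((g : (Module.End K V)ˣ) : Module.End K V)
        = (g : Module.End K V) * ((σ - 1) T)) := by
    intro T hT g hg
    have h1 := hT _ (hnorm' g hg)
    have h2 := hT g hg
    rw [Units.val_mul, Units.val_mul, ← hx, ← hxi] at h1
    rw [LinearMap.sub_apply, hσ, Module.End.one_apply, sub_mul, mul_sub, h2]
    congr 1
    calc x * T * xi * (g : Module.End K V)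
        = x * (T * (xi * (g : Module.End K V) * x)) * xi := by
          rw [show x * (T * (xi * (g : Module.End K V) * x)) * xi
            = x * T * xi * (g : Module.End K V) * (x * xi) by simp only [mul_assoc], hxxi, mul_one]
      _ = x * ((xi * (g : Module.End K V) * x) * T) * xi := by rw [h1]
      _ = (x * xi) * (g : Module.End K V) * (x * T * xi) := by simp only [mul_assoc]
      _ = (g : Module.End K V) * (x * T * xi) := by rw [hxxi, one_mul]
  have hEk : ∀ k : ℕ, ∀ g ∈ Q, (((σ - 1) ^ k) T0) * ((g : (Module.End K V)ˣ) : Module.End K V)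
        = (g : Module.End K V) * (((σ - 1) ^ k) T0) := by
    intro k
    induction k with
    | zero => simpa using hT0Q
    | succ k ih =>
      rw [pow_succ', Module.End.mul_apply]
      exact hE _ ih
  have hex : ∃ k : ℕ, ∃ c : K, ((σ - 1) ^ k) T0 = c • 1 := ⟨p ^ m, 0, by rw [hδ]; simp⟩
  have hk0 : Nat.find hex ≠ 0 := by
    intro h
    obtain ⟨c, hc⟩ := Nat.find_spec hex
    rw [h] at hc
    exact hT0ns c (by simpa using hc)
  obtain ⟨k1, hk1⟩ := Nat.exists_eq_succ_of_ne_zero hk0
  obtain ⟨T, hTdef⟩ : ∃ T : Module.End K V, T = ((σ - 1) ^ k1) T0 := ⟨_, rfl⟩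
  have hTns : ¬ ∃ c : K, T = c • 1 := by
    rw [hTdef]
    exact Nat.find_min hex (by omega : k1 < Nat.find hex)
  have hTQ : ∀ g ∈ Q, T * ((g : (Module.End K V)ˣ) : Module.End K V) = (g : Module.End K V) * T := by
    rw [hTdef]; exact hEk k1
  obtain ⟨c, hc⟩ : ∃ c : K, (σ - 1) T = c • 1 := by
    have := Nat.find_spec hex
    rw [hk1, Nat.succ_eq_add_one, pow_succ', Module.End.mul_apply, ← hTdef] at this
    exact this
  have hXT : x * T = (T + c • 1) * x := by
    have h1 : x * T * xi = T + c • 1 := by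
      rw [LinearMap.sub_apply, hσ, Module.End.one_apply] at hc
      rw [← hc]; abel
    calc x * T = x * T * (xi * x) := by rw [hxix, mul_one]
      _ = (x * T * xi) * x := by simp only [mul_assoc]
      _ = _ := by rw [h1]
  by_cases hc0 : c = 0
  · left
    refine alt2_of_fixed Q X T hTQ ?_ hTns
    rw [← hx, hXT, hc0]; simp
  · obtain ⟨S, hS⟩ : ∃ S : Module.End K V, S = T ^ p - c ^ (p - 1) • T := ⟨_, rfl⟩
    have hSQ : ∀ g ∈ Q, S * ((g : (Module.End K V)ˣ) : Module.End K V)
        = (g : Module.End K V) * S := by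
      intro g hg
      have h1 : Commute T (g : Module.End K V) := hTQ g hg
      have h2 : Commute S (g : Module.End K V) := by
        rw [hS]
        exact (h1.pow_left p).sub_left (h1.smul_left _)
      exact h2
    have hSX : x * S = S * x := by
      have h1 : SemiconjBy x T (T + c • 1) := hXT
      have h2 : x * T ^ p = (T + c • 1) ^ p * x := h1.pow_right p
      have h3 : (T + c • (1 : Module.End K V)) ^ p = T ^ p + (c ^ p) • 1 := by
        rw [add_pow_char_of_commute p ((Commute.one_right T).smul_right c), smul_pow, one_pow]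
      have h4 : c ^ p = c ^ (p - 1) * c := by
        rw [← pow_succ]
        congr 1
        have := (Fact.out : p.Prime).pos
        omega
      rw [hS, mul_sub, mul_smul_comm, h2, hXT, h3, h4, sub_mul, smul_mul_assoc, add_mul, add_mul,
        smul_add, smul_mul_assoc, smul_mul_assoc, smul_smul]
      abel
    by_cases hSs : ∃ μ : K, S = μ • 1
    · obtain ⟨μ, hμ⟩ := hSs
      right
      exact ⟨T, c, μ, hc0, hTQ, hXT, hS ▸ hμ⟩
    · left
      exact alt2_of_fixed Q X S hSQ (hx ▸ hSX) hSs

end Cfsg.Agent.Lib.Helper15.HHB
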