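import Cfsg.Agent.Lib.Helper15.HHBCOMM

/-!
# Rung IMPR of the ladder HHB: the imprimitive decomposition
-/

set_option autoImplicit false

namespace Cfsg.Agent.Lib.Helper15.HHB

open Module Cfsg.Agent.Lib.Helper12.HHB

variable {K : Type*} [Field K] {V : Type*} [AddCommGroup V] [Module K V]

theorem pow_apply_eig (T : Module.End K V) (a : K) (v : V) (h : T v = a • v) (k : ℕ) :
    (T ^ k) v = a ^ k • v := by
  induction k with
  | zero => simp
  | succ k ih => rw [pow_succ', Module.End.mul_apply, ih, map_smul, h, smul_smul, pow_succ]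

theorem exists_nat_of_pow_eq {p : ℕ} [Fact p.Prime] [CharP K p] (s : K) (hs : s ^ p = s) :
    ∃ i < p, (i : K) = s := by
  have h1 : s ∈ (⊥ : Subfield K) := (Subfield.mem_bot_iff_pow_eq_self K p).2 hs
  rw [← ZMod.fieldRange_castHom_eq_bot p] at h1
  obtain ⟨z, hz⟩ := h1
  refine ⟨z.val, ZMod.val_lt z, ?_⟩
  rw [← hz, ← map_natCast (ZMod.castHom (dvd_refl p) K), ZMod.natCast_zmod_val]

theorem shift_eig (x T : Module.End K V) (c : K) (hXT : x * T = (T + c • 1) * x) (a : K) (w : V)
    (hw : T w = a • w) : T (x w) = (a - c) • x w := by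
  have h1 := congrArg (fun f : Module.End K V => f w) hXT
  simp only [Module.End.mul_apply, LinearMap.add_apply, LinearMap.smul_apply,
    Module.End.one_apply, hw, map_smul] at h1
  rw [sub_smul, h1]; abel

theorem shift_eig_pow (x T : Module.End K V) (c : K) (hXT : x * T = (T + c • 1) * x) (a : K) (w : V)
    (hw : T w = a • w) (i : ℕ) : T ((x ^ i) w) = (a - i * c) • (x ^ i) w := by
  induction i with
  | zero => simpa using hw
  | succ i ih =>
    rw [pow_succ', Module.End.mul_apply, shift_eig x T c hXT _ _ ih]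
    congr 1
    push_cast; ring

theorem shift_eig_inv (x xi T : Module.End K V) (c : K) (hXT : x * T = (T + c • 1) * x)
    (hxxi : x * xi = 1) (hxix : xi * x = 1) : xi * T = (T + (-c) • 1) * xi := by
  have h1 : T * xi = xi * (x * T) * xi := by
    rw [← mul_assoc, hxix, one_mul]
  rw [hXT] at h1
  have h2 : xi * ((T + c • 1) * x) * xi = xi * (T + c • 1) := by
    rw [mul_assoc, mul_assoc, hxxi, mul_one]
  rw [h2, mul_add, mul_smul_comm, mul_one] at h1
  rw [add_mul, h1, smul_mul_assoc, one_mul, neg_smul]
  abel

theorem impr {p : ℕ} [Fact p.Prime] [CharP K p] [IsAlgClosed K] [FiniteDimensional K V]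
    [Nontrivial V]
    (Q : Subgroup (Module.End K V)ˣ) (X : (Module.End K V)ˣ) (T : Module.End K V) (c μ : K)
    (hc : c ≠ 0)
    (hTQ : ∀ g ∈ Q, T * ((g : (Module.End K V)ˣ) : Module.End K V) = (g : Module.End K V) * T)
    (hXT : (X : Module.End K V) * T = (T + c • 1) * (X : Module.End K V))
    (hμ : T ^ p - c ^ (p - 1) • T = μ • 1) :
    ∃ U : Submodule K V, U ≠ ⊥ ∧ U ≠ ⊤ ∧ Q ≤ stab U ∧ X ^ p ∈ stab U ∧
      (∀ v : V, ∃ u : ℕ → V, (∀ i, u i ∈ U) ∧
        v = ∑ i ∈ Finset.range p, ((X ^ i : (Module.End K V)ˣ) : Module.End K V) (u i)) ∧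
      (∀ u : ℕ → V, (∀ i, u i ∈ U) →
        ∑ i ∈ Finset.range p, ((X ^ i : (Module.End K V)ˣ) : Module.End K V) (u i) = 0 →
          ∀ i < p, u i = 0) := by
  classical
  have hp : p.Prime := Fact.out
  obtain ⟨ν, hν⟩ := Module.End.exists_eigenvalue T
  have hXiT : ((X⁻¹ : (Module.End K V)ˣ) : Module.End K V) * T
      = (T + (-c) • 1) * ((X⁻¹ : (Module.End K V)ˣ) : Module.End K V) :=
    shift_eig_inv _ _ T c hXT (Units.mul_inv X) (Units.inv_mul X)
  -- forward and backward shifts
  have hfw : ∀ (a : K) (i : ℕ) (w : V), w ∈ Module.End.eigenspace T a →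
      ((X ^ i : (Module.End K V)ˣ) : Module.End K V) w ∈ Module.End.eigenspace T (a - i * c) := by
    intro a i w hw
    rw [Module.End.mem_eigenspace_iff] at hw ⊢
    rw [Units.val_pow_eq_pow_val]
    exact shift_eig_pow _ T c hXT a w hw i
  have hbw : ∀ (a : K) (i : ℕ) (w : V), w ∈ Module.End.eigenspace T a →
      (((X ^ i)⁻¹ : (Module.End K V)ˣ) : Module.End K V) w
        ∈ Module.End.eigenspace T (a + i * c) := by
    intro a i w hw
    rw [Module.End.mem_eigenspace_iff] at hw ⊢
    rw [← inv_pow, Units.val_pow_eq_pow_val]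
    have := shift_eig_pow _ T (-c) hXiT a w hw i
    rw [this]
    congr 1
    ring
  have hp0 : (p : K) = 0 := CharP.cast_eq_zero K p
  have hinj : Function.Injective (fun i : Fin p => ν - (i : ℕ) * c) := by
    intro i j hij
    have h1 : ((i : ℕ) : K) = ((j : ℕ) : K) := by
      have : ((i : ℕ) : K) * c = ((j : ℕ) : K) * c := by
        have := hij
        simp only [sub_right_inj] at this
        exact this
      exact mul_right_cancel₀ hc this
    rw [CharP.natCast_eq_natCast K p] at h1
    apply Fin.ext
    have := Nat.ModEq.eq_of_lt_of_lt h1 i.2 j.2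
    exact this
  refine ⟨Module.End.eigenspace T ν, hν, ?_, ?_, ?_, ?_, ?_⟩
  · intro htop
    obtain ⟨w, hw⟩ := exists_ne (0 : V)
    have h1 : w ∈ Module.End.eigenspace T ν := htop ▸ Submodule.mem_top
    have h2 := hfw ν 1 w h1
    have h3 : ((X ^ 1 : (Module.End K V)ˣ) : Module.End K V) w ∈ Module.End.eigenspace T ν :=
      htop ▸ Submodule.mem_top
    rw [Module.End.mem_eigenspace_iff] at h2 h3
    rw [h3] at h2
    have h4 : c • ((X ^ 1 : (Module.End K V)ˣ) : Module.End K V) w = 0 := by
      have : (ν - (ν - ((1 : ℕ) : K) * c)) • ((X ^ 1 : (Module.End K V)ˣ) : Module.End K V) w = 0 := by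
        rw [sub_smul, ← h2, sub_self]
      simpa using this
    have h5 : ((X ^ 1 : (Module.End K V)ˣ) : Module.End K V) w = 0 :=
      (smul_eq_zero.1 h4).resolve_left hc
    have h6 : (((X ^ 1)⁻¹ : (Module.End K V)ˣ) : Module.End K V)
        (((X ^ 1 : (Module.End K V)ˣ) : Module.End K V) w) = w := by
      rw [← Module.End.mul_apply, Units.inv_mul, Module.End.one_apply]
    rw [h5, map_zero] at h6
    exact hw h6.symm
  · intro g hg
    exact mem_stab_eigenspace T ν g (hTQ g hg)
  · constructor
    · intro w hw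
      have := hfw ν p w hw
      rwa [hp0, zero_mul, sub_zero] at this
    · intro w hw
      have := hbw ν p w hw
      rwa [hp0, zero_mul, add_zero] at this
  · -- spanning
    have hss : T.IsSemisimple := by
      obtain ⟨d, hd⟩ : ∃ d : K, d = c ^ (p - 1) := ⟨_, rfl⟩
      have hd0 : d ≠ 0 := hd ▸ pow_ne_zero _ hc
      have hsq : Squarefree (Polynomial.X ^ p - Polynomial.C d * Polynomial.X
          - Polynomial.C μ : Polynomial K) := by
        apply Polynomial.Separable.squarefree
        rw [Polynomial.separable_def]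
        have : Polynomial.derivative (Polynomial.X ^ p - Polynomial.C d * Polynomial.X
          - Polynomial.C μ : Polynomial K) = Polynomial.C (-d) := by
          simp [Polynomial.derivative_X_pow]
        rw [this]
        exact ⟨0, Polynomial.C (-d)⁻¹, by
          rw [zero_mul, zero_add, ← Polynomial.C_mul, inv_mul_cancel₀ (neg_ne_zero.2 hd0),
            Polynomial.C_1]⟩
      refine Module.End.isSemisimple_of_squarefree_aeval_eq_zero hsq ?_
      simp only [map_sub, map_mul, map_pow, Polynomial.aeval_X, Polynomial.aeval_C,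
        Algebra.algebraMap_eq_smul_one, smul_mul_assoc, one_mul]
      rw [hd, hμ, sub_self]
    have htop := hss.iSup_eigenspace_eq_top
    have heq : ∀ (a : K) (v : V), v ≠ 0 → T v = a • v → a ^ p - c ^ (p - 1) * a = μ := by
      intro a v hv hTv
      have h1 := congrArg (fun f : Module.End K V => f v) hμ
      simp only [LinearMap.sub_apply, LinearMap.smul_apply, Module.End.one_apply,
        pow_apply_eig T a v hTv, hTv, smul_smul, ← sub_smul] at h1
      exact smul_left_injective K hv h1
    obtain ⟨w0, hw0⟩ := hν.exists_hasEigenvector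
    have hνeq := heq ν w0 hw0.2 (Module.End.mem_eigenspace_iff.1 hw0.1)
    intro v
    have hv : v ∈ ⨆ a : K, Module.End.eigenspace T a := htop ▸ Submodule.mem_top
    refine Submodule.iSup_induction _ (motive := fun v => ∃ u : ℕ → V,
      (∀ i, u i ∈ Module.End.eigenspace T ν) ∧
        v = ∑ i ∈ Finset.range p, ((X ^ i : (Module.End K V)ˣ) : Module.End K V) (u i)) hv ?_ ?_ ?_
    · intro a y hy
      by_cases hy0 : y = 0
      · exact ⟨fun _ => 0, fun _ => Submodule.zero_mem _, by simp [hy0]⟩
      have haeq := heq a y hy0 (Module.End.mem_eigenspace_iff.1 hy)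
      have hs : ((ν - a) / c) ^ p = (ν - a) / c := by
        rw [div_pow, sub_pow_char]
        have h1 : ν ^ p - a ^ p = c ^ (p - 1) * (ν - a) := by
          have := hνeq.trans haeq.symm
          linear_combination this
        have h2 : c ^ p = c ^ (p - 1) * c := by
          rw [← pow_succ]; congr 1; have := hp.pos; omega
        rw [h1, h2]
        field_simp
      obtain ⟨i, hip, hi⟩ := exists_nat_of_pow_eq (p := p) _ hs
      have ha : a + i * c = ν := by
        rw [hi]; field_simp; ring
      refine ⟨fun j => if j = i then (((X ^ i)⁻¹ : (Module.End K V)ˣ) : Module.End K V) y else 0,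
        ?_, ?_⟩
      · intro j
        by_cases hj : j = i
        · simp only [hj, if_true]
          have := hbw a i y hy
          rwa [ha] at this
        · simp only [hj, if_false]
          exact Submodule.zero_mem _
      · rw [Finset.sum_eq_single i]
        · simp only [if_true]
          rw [← Module.End.mul_apply, Units.mul_inv, Module.End.one_apply]
        · intro j _ hj
          simp [hj]
        · intro h
          exact absurd (Finset.mem_range.2 hip) h
    · exact ⟨fun _ => 0, fun _ => Submodule.zero_mem _, by simp⟩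
    · rintro y z ⟨u, hu, rfl⟩ ⟨u', hu', rfl⟩
      refine ⟨fun i => u i + u' i, fun i => Submodule.add_mem _ (hu i) (hu' i), ?_⟩
      simp [Finset.sum_add_distrib]
  · -- independence
    intro u hu hsum i hi
    have hind := (Module.End.eigenspaces_iSupIndep T).comp hinj
    rw [iSupIndep_iff_finsetSum_eq_zero_imp_eq_zero] at hind
    have h1 := hind Finset.univ
      (fun j : Fin p => ((X ^ (j : ℕ) : (Module.End K V)ˣ) : Module.End K V) (u j))
      (fun j _ => hfw ν j (u j) (hu j))
      (by
        rw [Fin.sum_univ_eq_sum_range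
          (fun j : ℕ => ((X ^ j : (Module.End K V)ˣ) : Module.End K V) (u j)) p]
        exact hsum)
      ⟨i, hi⟩ (Finset.mem_univ _)
    simp only at h1
    have h6 : (((X ^ i)⁻¹ : (Module.End K V)ˣ) : Module.End K V)
        (((X ^ i : (Module.End K V)ˣ) : Module.End K V) (u i)) = u i := by
      rw [← Module.End.mul_apply, Units.inv_mul, Module.End.one_apply]
    rw [h1, map_zero] at h6
    exact h6.symm

end Cfsg.Agent.Lib.Helper15.HHB
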