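import Cfsg.Agent.Lib.Helper12.HHB.Defs

/-!
# Rung IMPRIDX of the ladder HHB: the index of an induced operator
-/

set_option autoImplicit false

namespace Cfsg.Agent.Lib.Helper15.HHB

open Module Cfsg.Agent.Lib.Helper12.HHB

variable {K : Type*} [Field K] {V : Type*} [AddCommGroup V] [Module K V]

theorem poly_sub_one_pow {p : ℕ} [Fact p.Prime] [CharP K p] :
    ((Polynomial.X : Polynomial K) - 1) ^ p = Polynomial.X ^ p - 1 := by
  rw [sub_pow_char, one_pow]

theorem poly_geom {p : ℕ} [Fact p.Prime] [CharP K p] :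
    ((Polynomial.X : Polynomial K) - 1) ^ (p - 1) = ∑ i ∈ Finset.range p, Polynomial.X ^ i := by
  have hp : p.Prime := Fact.out
  have h1 : (∑ i ∈ Finset.range p, (Polynomial.X : Polynomial K) ^ i) * (Polynomial.X - 1)
      = ((Polynomial.X : Polynomial K) - 1) ^ (p - 1) * (Polynomial.X - 1) := by
    rw [geom_sum_mul, ← pow_succ, ← poly_sub_one_pow (K := K) (p := p)]
    congr 1
    have := hp.pos
    omega
  have h2 : ((Polynomial.X : Polynomial K) - 1) ≠ 0 := by
    have := Polynomial.X_sub_C_ne_zero (1 : K)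
    simpa using this
  exact (mul_right_cancel₀ h2 h1).symm

theorem end_sub_one_pow {p : ℕ} [Fact p.Prime] [CharP K p] (x : Module.End K V) :
    (x - 1) ^ p = x ^ p - 1 := by
  have := congrArg (Polynomial.aeval x) (poly_sub_one_pow (K := K) (p := p))
  simpa using this

theorem end_geom {p : ℕ} [Fact p.Prime] [CharP K p] (x : Module.End K V) :
    (x - 1) ^ (p - 1) = ∑ i ∈ Finset.range p, x ^ i := by
  have := congrArg (Polynomial.aeval x) (poly_geom (K := K) (p := p))
  simpa using this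

theorem impr_idx {p : ℕ} [Fact p.Prime] [CharP K p] (X : (Module.End K V)ˣ) (U : Submodule K V)
    (hXU : X ^ p ∈ stab U)
    (hspan : ∀ v : V, ∃ u : ℕ → V, (∀ i, u i ∈ U) ∧
        v = ∑ i ∈ Finset.range p, ((X ^ i : (Module.End K V)ˣ) : Module.End K V) (u i))
    (hind : ∀ u : ℕ → V, (∀ i, u i ∈ U) →
        ∑ i ∈ Finset.range p, ((X ^ i : (Module.End K V)ˣ) : Module.End K V) (u i) = 0 →
          ∀ i < p, u i = 0)
    (s s₁ : ℕ) (hs : IsIdx ((X : Module.End K V) - 1) s)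
    (hs₁ : IsIdx (((resHom U ⟨X ^ p, hXU⟩ : (Module.End K U)ˣ) : Module.End K U) - 1) s₁) :
    s = p * s₁ := by
  classical
  have hp : p.Prime := Fact.out
  obtain ⟨x, hx⟩ : ∃ x : Module.End K V, x = (X : Module.End K V) := ⟨_, rfl⟩
  obtain ⟨R, hR⟩ : ∃ R : Module.End K U,
      R = ((resHom U ⟨X ^ p, hXU⟩ : (Module.End K U)ˣ) : Module.End K U) - 1 := ⟨_, rfl⟩
  rw [← hx] at hs
  rw [← hR] at hs₁
  simp only [Units.val_pow_eq_pow_val, ← hx] at hspan hind
  have hNp : (x - 1) ^ p = x ^ p - 1 := end_sub_one_pow x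
  have hgeom : (x - 1) ^ (p - 1) = ∑ i ∈ Finset.range p, x ^ i := end_geom x
  have hR1 : ∀ z : U, ((R z : U) : V) = (x ^ p - 1) (z : V) := by
    intro z
    rw [hR, LinearMap.sub_apply, Module.End.one_apply, LinearMap.sub_apply, Module.End.one_apply,
      Submodule.coe_sub, resHom_apply, hx]
    simp [Units.val_pow_eq_pow_val]
  have hRk : ∀ (k : ℕ) (z : U), (((R ^ k) z : U) : V) = ((x ^ p - 1) ^ k) (z : V) := by
    intro k
    induction k with
    | zero => intro z; simp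
    | succ k ih =>
      intro z
      rw [pow_succ', Module.End.mul_apply, hR1, ih, pow_succ', Module.End.mul_apply]
  have hcomm : Commute (x ^ p - 1) x :=
    ((Commute.refl x).pow_left p).sub_left (Commute.one_left x)
  have hA : ∀ k : ℕ, R ^ k = 0 → (x ^ p - 1) ^ k = 0 := by
    intro k hk
    ext v
    obtain ⟨u, hu, rfl⟩ := hspan v
    rw [map_sum, LinearMap.zero_apply]
    apply Finset.sum_eq_zero
    intro i _
    have h1 : ((x ^ p - 1) ^ k) ((x ^ i) (u i)) = (x ^ i) (((x ^ p - 1) ^ k) (u i)) := by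
      have := congrArg (fun f : Module.End K V => f (u i)) (hcomm.pow_pow k i).eq
      simpa using this
    have h2 := hRk k ⟨u i, hu i⟩
    rw [hk] at h2
    simp only [LinearMap.zero_apply, Submodule.coe_zero] at h2
    rw [h1, ← h2, map_zero]
  have h1 : (x - 1) ^ (p * s₁) = 0 := by
    rw [pow_mul, hNp]; exact hA s₁ hs₁.1
  have hle : s ≤ p * s₁ := by
    by_contra h
    exact hs.2 _ (not_le.1 h) h1
  have hge : p * s₁ ≤ s := by
    rcases Nat.eq_zero_or_pos s₁ with h0 | hpos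
    · simp [h0]
    by_contra hlt
    have hlt' : s < p * s₁ := not_le.1 hlt
    have h2 : (x - 1) ^ (p * s₁ - 1) = 0 := by
      have : p * s₁ - 1 = s + (p * s₁ - 1 - s) := by omega
      rw [this, pow_add, hs.1, zero_mul]
    have h3 : p * s₁ - 1 = (p - 1) + p * (s₁ - 1) := by
      obtain ⟨t, rfl⟩ : ∃ t, s₁ = t + 1 := ⟨s₁ - 1, by omega⟩
      have := hp.pos
      rw [Nat.add_sub_cancel, Nat.mul_succ]
      omega
    rw [h3, pow_add, pow_mul, hNp, hgeom] at h2
    have hRne : R ^ (s₁ - 1) ≠ 0 := hs₁.2 _ (by omega)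
    obtain ⟨u, hu⟩ : ∃ u : U, (R ^ (s₁ - 1)) u ≠ 0 := by
      by_contra h
      push Not at h
      exact hRne (LinearMap.ext h)
    have h4 : ∑ i ∈ Finset.range p, (x ^ i) (((R ^ (s₁ - 1)) u : U) : V) = 0 := by
      have := congrArg (fun f : Module.End K V => f (u : V)) h2
      simp only [Module.End.mul_apply, LinearMap.zero_apply, LinearMap.sum_apply, ← hRk] at this
      exact this
    have h5 := hind (fun _ => (((R ^ (s₁ - 1)) u : U) : V)) (fun _ => ((R ^ (s₁ - 1)) u).2) h4 0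
      hp.pos
    exact hu (Subtype.ext h5)
  exact le_antisymm hle hge

theorem impr_nc {p : ℕ} (Q : Subgroup (Module.End K V)ˣ) (X Y : (Module.End K V)ˣ)
    (hXY : X * Y = Y * X)
    (hnorm' : ∀ g ∈ Q, X⁻¹ * g * X ∈ Q) (U : Submodule K V) (hQU : Q ≤ stab U) (hYU : Y ∈ stab U)
    (hspan : ∀ v : V, ∃ u : ℕ → V, (∀ i, u i ∈ U) ∧
        v = ∑ i ∈ Finset.range p, ((X ^ i : (Module.End K V)ˣ) : Module.End K V) (u i))
    (hnc : ∃ g ∈ Q, Y * g ≠ g * Y) :
    ∃ g, ∃ hg : g ∈ Q, resHom U ⟨Y, hYU⟩ * resHom U ⟨g, hQU hg⟩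
      ≠ resHom U ⟨g, hQU hg⟩ * resHom U ⟨Y, hYU⟩ := by
  by_contra h
  push Not at h
  obtain ⟨g, hg, hne⟩ := hnc
  apply hne
  have key : ∀ g (_ : g ∈ Q) (u : U), (Y : Module.End K V) ((g : Module.End K V) (u : V))
      = (g : Module.End K V) ((Y : Module.End K V) (u : V)) := by
    intro g hg u
    have h1 := h g hg
    have h2 := congrArg (fun a : (Module.End K U)ˣ => (((a : Module.End K U) u : U) : V)) h1
    simpa using h2
  have hconj : ∀ i : ℕ, ∀ g ∈ Q, (X ^ i)⁻¹ * g * X ^ i ∈ Q := by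
    intro i
    induction i with
    | zero => intro g hg; simpa using hg
    | succ i ih =>
      intro g hg
      have := hnorm' _ (ih g hg)
      have e : X⁻¹ * ((X ^ i)⁻¹ * g * X ^ i) * X = (X ^ (i + 1))⁻¹ * g * X ^ (i + 1) := by
        rw [pow_succ, mul_inv_rev]
        simp only [mul_assoc]
      rwa [e] at this
  apply Units.ext
  ext v
  obtain ⟨u, hu, rfl⟩ := hspan v
  rw [map_sum, map_sum]
  apply Finset.sum_congr rfl
  intro i _
  obtain ⟨Z, hZ⟩ : ∃ Z : (Module.End K V)ˣ, Z = X ^ i := ⟨_, rfl⟩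
  have hc : Commute Z Y := by rw [hZ]; exact (show Commute X Y from hXY).pow_left i
  have hg' : Z⁻¹ * g * Z ∈ Q := by rw [hZ]; exact hconj i g hg
  rw [← hZ]
  have e1 : Y * g * Z = Z * (Y * (Z⁻¹ * g * Z)) := by
    rw [← mul_assoc, hc.eq]; group
  have e2 : g * Y * Z = Z * ((Z⁻¹ * g * Z) * Y) := by
    rw [mul_assoc g, ← hc.eq]; group
  have f1 := congrArg (fun a : (Module.End K V)ˣ => (a : Module.End K V) (u i)) e1
  have f2 := congrArg (fun a : (Module.End K V)ˣ => (a : Module.End K V) (u i)) e2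
  simp only [Units.val_mul, Module.End.mul_apply] at f1 f2 ⊢
  rw [f1, f2]
  have := key _ hg' ⟨u i, hu i⟩
  simp only [Units.val_mul, Module.End.mul_apply] at this
  rw [this]

end Cfsg.Agent.Lib.Helper15.HHB
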