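import Mathlib

set_option autoImplicit false

namespace Cfsg.Agent.Lib.Helper15

abbrev Q4 := ℕ × ℕ × ℕ × ℕ

def qmul (p : ℕ) (x y : Q4) : Q4 :=
  ((x.1 * y.1 + x.2.1 * y.2.2.1) % p, (x.1 * y.2.1 + x.2.1 * y.2.2.2) % p,
   (x.2.2.1 * y.1 + x.2.2.2 * y.2.2.1) % p, (x.2.2.1 * y.2.1 + x.2.2.2 * y.2.2.2) % p)

def qmat (p : ℕ) (x : Q4) : Matrix (Fin 2) (Fin 2) (ZMod p) :=
  !![(x.1 : ZMod p), (x.2.1 : ZMod p); (x.2.2.1 : ZMod p), (x.2.2.2 : ZMod p)]

theorem qmat_mul (p : ℕ) (x y : Q4) : qmat p (qmul p x y) = qmat p x * qmat p y := by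
  obtain ⟨a, b, c, d⟩ := x
  obtain ⟨a', b', c', d'⟩ := y
  simp only [qmat, qmul, Matrix.mul_fin_two, ZMod.natCast_mod, Nat.cast_add, Nat.cast_mul]

theorem qmat_one (p : ℕ) : qmat p (1, 0, 0, 1) = 1 := by
  simp [qmat, Matrix.one_fin_two]

theorem qmat_inj (p : ℕ) {x y : Q4} (hx : x.1 < p ∧ x.2.1 < p ∧ x.2.2.1 < p ∧ x.2.2.2 < p)
    (hy : y.1 < p ∧ y.2.1 < p ∧ y.2.2.1 < p ∧ y.2.2.2 < p) (h : qmat p x = qmat p y) : x = y := by
  obtain ⟨a, b, c, d⟩ := x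
  obtain ⟨a', b', c', d'⟩ := y
  have key : ∀ u v : ℕ, u < p → v < p → (u : ZMod p) = v → u = v := by
    intro u v hu hv huv
    rw [ZMod.natCast_eq_natCast_iff'] at huv
    rwa [Nat.mod_eq_of_lt hu, Nat.mod_eq_of_lt hv] at huv
  have h00 := congrFun (congrFun h 0) 0
  have h01 := congrFun (congrFun h 0) 1
  have h10 := congrFun (congrFun h 1) 0
  have h11 := congrFun (congrFun h 1) 1
  simp [qmat] at h00 h01 h10 h11
  simp only at hx hy
  rw [key _ _ hx.1 hy.1 h00, key _ _ hx.2.1 hy.2.1 h01, key _ _ hx.2.2.1 hy.2.2.1 h10,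
    key _ _ hx.2.2.2 hy.2.2.2 h11]

open Matrix in
theorem regular_main (p q : ℕ) [Fact p.Prime] (hq : q + 1 = p)
    (T : Set (GL (Fin 2) (ZMod p))) (gens L : List Q4) (c0 : ℕ) (Z : List ℕ)
    (hT : ∀ g ∈ T, (∃ c ∈ gens, (g : Matrix (Fin 2) (Fin 2) (ZMod p)) = qmat p c) ∨
      (g : Matrix (Fin 2) (Fin 2) (ZMod p)) = (c0 : ZMod p) • 1)
    (hgens : ∀ c ∈ gens, ∃ g ∈ Subgroup.closure T, (g : Matrix (Fin 2) (Fin 2) (ZMod p)) = qmat p c)
    (hc0 : ∃ g ∈ Subgroup.closure T, (g : Matrix (Fin 2) (Fin 2) (ZMod p)) = (c0 : ZMod p) • 1)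
    (h1L : (1, 0, 0, 1) ∈ L) (h1Z : 1 ∈ Z)
    (hred : ∀ x ∈ L, x.1 < p ∧ x.2.1 < p ∧ x.2.2.1 < p ∧ x.2.2.2 < p)
    (hredZ : ∀ z ∈ Z, 0 < z ∧ z < p)
    (hclL : ∀ c ∈ gens, ∀ x ∈ L, qmul p c x ∈ L)
    (hclZ : ∀ z ∈ Z, (c0 * z) % p ∈ Z)
    (hwords : ∀ x ∈ L, ∃ w : List Q4, (∀ c ∈ w, c ∈ gens) ∧ w.foldr (qmul p) (1, 0, 0, 1) = x)
    (hpows : ∀ z ∈ Z, ∃ k : ℕ, c0 ^ k % p = z)
    (hdet : ∀ x ∈ L, (x.1 * x.2.2.2) % p = (x.2.1 * x.2.2.1 + 1) % p)
    (hsq : ∀ z ∈ Z, ∀ z' ∈ Z, (z * z) % p = (z' * z') % p → z = z')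
    (hndL : L.Nodup) (hndZ : Z.Nodup) (hlen : Z.length * L.length = p ^ 2 - 1)
    (hfree : ∀ z ∈ Z, ∀ x ∈ L, (z, x) ≠ (1, (1, 0, 0, 1)) →
      ((z * x.1 + q) * (z * x.2.2.2 + q)) % p ≠ ((z * x.2.1) * (z * x.2.2.1)) % p) :
    Nat.card (Subgroup.closure T) = p ^ 2 - 1 ∧
    ∀ v w : Fin 2 → ZMod p, v ≠ 0 → w ≠ 0 → ∃! h : Subgroup.closure T,
      Matrix.mulVec ((h : GL (Fin 2) (ZMod p)) : Matrix (Fin 2) (Fin 2) (ZMod p)) v = w := by
  classical
  have hp : p.Prime := Fact.out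
  set H := Subgroup.closure T with hH
  let f : ℕ × Q4 → Matrix (Fin 2) (Fin 2) (ZMod p) := fun zx => (zx.1 : ZMod p) • qmat p zx.2
  let F : Finset (Matrix (Fin 2) (Fin 2) (ZMod p)) := (Z.toFinset ×ˢ L.toFinset).image f
  have hzne : ∀ z ∈ Z, (z : ZMod p) ≠ 0 := by
    intro z hz h0
    rw [ZMod.natCast_eq_zero_iff] at h0
    exact absurd (Nat.le_of_dvd (hredZ z hz).1 h0) (not_le.mpr (hredZ z hz).2)
  have hdet' : ∀ x ∈ L, (qmat p x).det = 1 := by
    intro x hx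
    have := hdet x hx
    rw [← ZMod.natCast_eq_natCast_iff'] at this
    push_cast at this
    simp only [qmat, Matrix.det_fin_two_of]
    rw [this]; ring
  -- injectivity of f
  have hfinj : Set.InjOn f (Z.toFinset ×ˢ L.toFinset : Finset (ℕ × Q4)) := by
    rintro ⟨z, x⟩ hzx ⟨z', x'⟩ hzx' h
    simp only [Finset.coe_product, Set.mem_prod, Finset.mem_coe, List.mem_toFinset] at hzx hzx'
    have hd := congrArg Matrix.det h
    simp only [f, Matrix.det_smul, Fintype.card_fin, hdet' x hzx.2, hdet' x' hzx'.2, mul_one] at hd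
    have hzz : z = z' := by
      apply hsq z hzx.1 z' hzx'.1
      rw [← ZMod.natCast_eq_natCast_iff']
      push_cast
      rw [← pow_two, ← pow_two, hd]
    subst hzz
    have hx : qmat p x = qmat p x' := by
      have := congrArg (fun M => (z : ZMod p)⁻¹ • M) h
      simpa only [f, smul_smul, inv_mul_cancel₀ (hzne z hzx.1), one_smul] using this
    rw [qmat_inj p (hred x hzx.2) (hred x' hzx'.2) hx]
  have hFcard : F.card = p ^ 2 - 1 := by
    rw [Finset.card_image_of_injOn hfinj, Finset.card_product, List.toFinset_card_of_nodup hndZ,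
      List.toFinset_card_of_nodup hndL, hlen]
  have hFmem : ∀ M, M ∈ F ↔ ∃ z ∈ Z, ∃ x ∈ L, M = (z : ZMod p) • qmat p x := by
    intro M
    simp only [F, f, Finset.mem_image, Finset.mem_product, List.mem_toFinset]
    constructor
    · rintro ⟨⟨z, x⟩, ⟨hz, hx⟩, rfl⟩; exact ⟨z, hz, x, hx, rfl⟩
    · rintro ⟨z, hz, x, hx, rfl⟩; exact ⟨⟨z, x⟩, ⟨hz, hx⟩, rfl⟩
  -- H is contained in F
  have hHF : ∀ h ∈ H, ((h : GL (Fin 2) (ZMod p)) : Matrix (Fin 2) (Fin 2) (ZMod p)) ∈ F := by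
    intro h hh
    have hh' : h ∈ Submonoid.closure T := by
      rw [← Subgroup.closure_toSubmonoid_of_finite]; exact hh
    induction hh' using Submonoid.closure_induction_left with
    | one =>
      rw [hFmem]
      exact ⟨1, h1Z, _, h1L, by simp [qmat_one]⟩
    | mul_left g hg y hy ih =>
      have hy' : y ∈ H := by
        have : y ∈ (Subgroup.closure T).toSubmonoid := by
          rw [Subgroup.closure_toSubmonoid_of_finite]; exact hy
        exact this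
      obtain ⟨z, hz, x, hx, hyx⟩ := (hFmem _).1 (ih hy')
      rw [hFmem, Units.val_mul, hyx]
      rcases hT g hg with ⟨c, hc, hgc⟩ | hgc
      · refine ⟨z, hz, _, hclL c hc x hx, ?_⟩
        rw [hgc, qmat_mul, Matrix.mul_smul]
      · refine ⟨_, hclZ z hz, x, hx, ?_⟩
        rw [hgc, ZMod.natCast_mod, Nat.cast_mul, Matrix.smul_mul, Matrix.one_mul, smul_smul]
  -- F is contained in H
  have hFH : ∀ M ∈ F, ∃ h ∈ H, ((h : GL (Fin 2) (ZMod p)) : Matrix (Fin 2) (Fin 2) (ZMod p)) = M := by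
    intro M hM
    obtain ⟨z, hz, x, hx, rfl⟩ := (hFmem _).1 hM
    have h1 : ∃ h ∈ H, ((h : GL (Fin 2) (ZMod p)) : Matrix (Fin 2) (Fin 2) (ZMod p)) = qmat p x := by
      obtain ⟨w, hw, hwx⟩ := hwords x hx
      subst hwx
      clear hx hM
      induction w with
      | nil => exact ⟨1, one_mem _, by simp [qmat_one]⟩
      | cons c w ih =>
        obtain ⟨h, hh, hhw⟩ := ih (fun c hc => hw c (List.mem_cons_of_mem _ hc))
        obtain ⟨g, hg, hgc⟩ := hgens c (hw c List.mem_cons_self)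
        exact ⟨g * h, mul_mem hg hh, by rw [Units.val_mul, hgc, hhw, List.foldr_cons, qmat_mul]⟩
    have h2 : ∃ h ∈ H, ((h : GL (Fin 2) (ZMod p)) : Matrix (Fin 2) (Fin 2) (ZMod p)) =
        (z : ZMod p) • 1 := by
      obtain ⟨k, hk⟩ := hpows z hz
      obtain ⟨g, hg, hgc⟩ := hc0
      refine ⟨g ^ k, pow_mem hg k, ?_⟩
      rw [Units.val_pow_eq_pow_val, hgc, smul_pow, one_pow, ← hk, ZMod.natCast_mod, Nat.cast_pow]
    obtain ⟨a, ha, hax⟩ := h1
    obtain ⟨b, hb, hbz⟩ := h2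
    exact ⟨b * a, mul_mem hb ha, by rw [Units.val_mul, hax, hbz, Matrix.smul_mul, Matrix.one_mul]⟩
  have hcard : Nat.card H = p ^ 2 - 1 := by
    rw [← hFcard, ← Fintype.card_coe F, ← Nat.card_eq_fintype_card]
    exact Nat.card_congr (Equiv.ofBijective
      (fun h : H => (⟨((h : GL (Fin 2) (ZMod p)) : Matrix (Fin 2) (Fin 2) (ZMod p)), hHF h h.2⟩ : F))
      ⟨fun a b hab => Subtype.ext (Units.ext (congrArg Subtype.val hab)),
       fun M => by
        obtain ⟨h, hh, hM⟩ := hFH M.1 M.2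
        exact ⟨⟨h, hh⟩, Subtype.ext hM⟩⟩)
  refine ⟨hcard, ?_⟩
  have hqc : ((q : ℕ) : ZMod p) = -1 := by
    have : ((q + 1 : ℕ) : ZMod p) = 0 := by rw [hq]; exact ZMod.natCast_self p
    push_cast at this
    exact eq_neg_of_add_eq_zero_left this
  -- freeness
  have hfr : ∀ h ∈ H, ∀ v : Fin 2 → ZMod p, v ≠ 0 →
      Matrix.mulVec ((h : GL (Fin 2) (ZMod p)) : Matrix (Fin 2) (Fin 2) (ZMod p)) v = v → h = 1 := by
    intro h hh v hv hhv
    by_contra hne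
    obtain ⟨z, hz, x, hx, hzx⟩ := (hFmem _).1 (hHF h hh)
    have hne' : (z, x) ≠ (1, (1, 0, 0, 1)) := by
      intro he
      rw [Prod.mk.injEq] at he
      apply hne
      apply Units.ext
      rw [hzx, he.1, he.2, qmat_one]
      simp
    have hd := hfree z hz x hx hne'
    have hd' : ((h : Matrix (Fin 2) (Fin 2) (ZMod p)) - 1).det ≠ 0 := by
      intro h0
      apply hd
      rw [← ZMod.natCast_eq_natCast_iff']
      push_cast
      rw [hqc]
      rw [hzx] at h0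
      simp only [qmat, Matrix.one_fin_two, Matrix.smul_of, Matrix.smul_cons, Matrix.smul_empty,
        smul_eq_mul, Matrix.of_sub_of, Matrix.sub_cons, Matrix.head_cons, Matrix.tail_cons,
        Matrix.empty_sub_empty, Matrix.det_fin_two_of, sub_zero] at h0
      linear_combination h0
    apply hv
    apply Matrix.eq_zero_of_mulVec_eq_zero hd'
    rw [Matrix.sub_mulVec, hhv, Matrix.one_mulVec, sub_self]
  intro v w hv hw
  have hmv : ∀ h : H, Matrix.mulVec ((h : GL (Fin 2) (ZMod p)) : Matrix (Fin 2) (Fin 2) (ZMod p)) v ≠ 0 := by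
    intro h h0
    apply hv
    have := congrArg (Matrix.mulVec (((h⁻¹ : H) : GL (Fin 2) (ZMod p)) : Matrix (Fin 2) (Fin 2) (ZMod p))) h0
    rw [Matrix.mulVec_mulVec, Matrix.mulVec_zero, ← Units.val_mul, ← Subgroup.coe_mul,
      inv_mul_cancel] at this
    simpa using this
  let φ : H → {u : Fin 2 → ZMod p // u ≠ 0} := fun h => ⟨_, hmv h⟩
  have hφinj : Function.Injective φ := by
    intro a b hab
    have hab' : Matrix.mulVec ((a : GL (Fin 2) (ZMod p)) : Matrix (Fin 2) (Fin 2) (ZMod p)) v =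
      Matrix.mulVec ((b : GL (Fin 2) (ZMod p)) : Matrix (Fin 2) (Fin 2) (ZMod p)) v :=
      congrArg Subtype.val hab
    have h1 : (b⁻¹ * a : H) = 1 := by
      apply Subtype.ext
      apply hfr _ (b⁻¹ * a : H).2 v hv
      rw [Subgroup.coe_mul, Units.val_mul, ← Matrix.mulVec_mulVec, hab', Matrix.mulVec_mulVec,
        ← Units.val_mul, ← Subgroup.coe_mul, inv_mul_cancel]
      simp
    exact (inv_mul_eq_one.mp h1).symm
  have hcardV : Nat.card {u : Fin 2 → ZMod p // u ≠ 0} = p ^ 2 - 1 := by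
    rw [Nat.card_eq_fintype_card, Fintype.card_subtype_compl, Fintype.card_subtype_eq]
    simp [ZMod.card]
  have hφbij : Function.Bijective φ :=
    hφinj.bijective_of_nat_card_le (by rw [hcard, hcardV])
  obtain ⟨h, hh⟩ := hφbij.2 ⟨w, hw⟩
  refine ⟨h, congrArg Subtype.val hh, ?_⟩
  intro h' hh'
  apply hφinj
  rw [hh]
  exact Subtype.ext hh'

theorem words_of_map (p : ℕ) (gens L : List Q4) (words : List (List Q4))
    (h1 : ∀ w ∈ words, ∀ c ∈ w, c ∈ gens)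
    (h2 : words.map (fun w => w.foldr (qmul p) (1, 0, 0, 1)) = L) :
    ∀ x ∈ L, ∃ w : List Q4, (∀ c ∈ w, c ∈ gens) ∧ w.foldr (qmul p) (1, 0, 0, 1) = x := by
  intro x hx
  rw [← h2, List.mem_map] at hx
  obtain ⟨w, hw, hwx⟩ := hx
  exact ⟨w, h1 w hw, hwx⟩

theorem pows_of_map (p c0 m : ℕ) (Z : List ℕ)
    (h : (List.range m).map (fun k => c0 ^ k % p) = Z) :
    ∀ z ∈ Z, ∃ k : ℕ, c0 ^ k % p = z := by
  intro z hz
  rw [← h, List.mem_map] at hz
  obtain ⟨k, _, hk⟩ := hz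
  exact ⟨k, hk⟩

end Cfsg.Agent.Lib.Helper15
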