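import Mathlib
import Cfsg.Agent.Lib.Helper6.OA.Diag
import Cfsg.Agent.Lib.Helper15.GSDET

set_option autoImplicit false
set_option linter.unusedSectionVars false

namespace Cfsg.Agent.Lib.Helper15.GS

open Matrix QuadraticMap Module
open Cfsg.Agent.Lib.Helper18 Cfsg.Agent.Lib.Helper18.OmegaCenter Cfsg.Agent.Lib.Helper6.OA

variable {ι : Type} [Fintype ι] [DecidableEq ι] {F : Type*} [Field F] [Fintype F]
variable {Q : QuadraticForm F (ι → F)} {k : ℕ} {ν : Fˣ} {D : ↥(GO ⇑Q)}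

theorem eps_of_sq (S : Setup Q k ν D) (hk : Even k) (g : ↥(GO ⇑Q)) (hmu : S.muBar g = -1)
    (hsq : g * g = sc Q (mu Q S.hv g)) : S.eps g = 1 := by
  have hns : ¬ IsSquare ((mu Q S.hv g : Fˣ) : F) := by
    rintro ⟨t, ht⟩
    have ht0 : t ≠ 0 := by
      rintro rfl
      exact (mu Q S.hv g).ne_zero (by rw [ht]; simp)
    have h1 : S.muBar g = 1 :=
      (S.muBar_eq_one_iff g).2 ⟨Units.mk0 t ht0, Units.ext (by rw [ht]; simp)⟩
    rw [hmu] at h1
    exact absurd h1 (by decide)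
  have h2 : (g.1 : Matrix ι ι F) * (g.1 : Matrix ι ι F) =
      ((mu Q S.hv g : Fˣ) : F) • (1 : Matrix ι ι F) := by
    have := congrArg (fun x : ↥(GO ⇑Q) => (x.1 : Matrix ι ι F)) hsq
    simp only [coe_mul', sc_coe] at this
    exact this
  have h3 := det_of_sq k S.dim (g.1 : Matrix ι ι F) _ hns h2
  rw [hk.neg_pow] at h3
  rw [S.eps_eq_one_iff]
  show GeneralLinearGroup.det g.1 * ((mu Q S.hv g)⁻¹) ^ k = 1
  apply Units.ext
  rw [Units.val_mul, GeneralLinearGroup.val_det_apply, h3]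
  simp only [Units.val_pow_eq_pow_val, Units.val_inv_eq_inv_val, Units.val_one]
  rw [inv_pow]
  exact mul_inv_cancel₀ (pow_ne_zero _ (mu Q S.hv g).ne_zero)

end Cfsg.Agent.Lib.Helper15.GS
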