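import Mathlib
import Cfsg.Agent.Lib.Helper6.OA.Diag
import Cfsg.Agent.Lib.Helper15.GSPOLY

set_option autoImplicit false
set_option linter.unusedSectionVars false

namespace Cfsg.Agent.Lib.Helper15.GS

open Matrix QuadraticMap Module
open Cfsg.Agent.Lib.Helper18 Cfsg.Agent.Lib.Helper18.OmegaCenter Cfsg.Agent.Lib.Helper6.OA

variable {ι : Type} [Fintype ι] [DecidableEq ι] {F : Type*} [Field F] [Fintype F]
variable {Q : QuadraticForm F (ι → F)} {k : ℕ} {ν : Fˣ} {D : ↥(GO ⇑Q)}

theorem swap_parity (S : Setup Q k ν D) (h : ↥(Cfsg.isometryGroup F ⇑Q)) (hh : h * h = 1)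
    (hd : dh Q h = -1) (a : ↥(GO ⇑Q)) (hc : a * iO Q h = sc Q (-1) * (iO Q h * a)) : Odd k := by
  have h1 : (a.1 : Matrix ι ι F) * mat h = -(mat h * (a.1 : Matrix ι ι F)) := by
    have := congrArg (fun x : ↥(GO ⇑Q) => (x.1 : Matrix ι ι F)) hc
    simp only [coe_mul', sc_coe, iO_coe] at this
    rw [this]
    simp
  have h2 : mat h * mat h = (1 : F) • (1 : Matrix ι ι F) := by
    have := congrArg (fun x : ↥(Cfsg.isometryGroup F ⇑Q) => mat x) hh
    rw [one_smul]
    exact this
  have h3 : (-(mat h)).charpoly = (mat h).charpoly := by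
    have h4 := Matrix.charpoly_units_conj a.1 (mat h)
    rw [h1] at h4
    rw [← h4]
    congr 1
    rw [Matrix.neg_mul, Matrix.mul_assoc]
    simp
  have h5 := det_of_charpoly S.h2 k S.dim (mat h) 1 h2 h3
  rw [← dh_coe, hd] at h5
  rcases Nat.even_or_odd k with hk | hk
  · exfalso
    rw [hk.neg_one_pow] at h5
    apply S.neg_one_ne_one
    exact Units.ext h5
  · exact hk

end Cfsg.Agent.Lib.Helper15.GS
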