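import Mathlib

set_option autoImplicit false

namespace Cfsg.Agent.Lib.Helper15

open MulAction SubMulAction
open scoped Pointwise

section
variable {G : Type*} [Group G] {X : Type*} [MulAction G X]

theorem free_of_reg (N : Subgroup G) (hreg : ∀ x : X, MulAction.stabilizer N x = ⊥)
    {n m : G} (hn : n ∈ N) (hm : m ∈ N) {x : X} (h : n • x = m • x) : n = m := by
  have h1 : (⟨m⁻¹ * n, mul_mem (inv_mem hm) hn⟩ : N) ∈ MulAction.stabilizer N x := by
    rw [MulAction.mem_stabilizer_iff]
    change (m⁻¹ * n) • x = x
    rw [mul_smul, h, inv_smul_smul]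
  rw [hreg, Subgroup.mem_bot] at h1
  have h2 : m⁻¹ * n = 1 := congrArg Subtype.val h1
  exact (inv_mul_eq_one.mp h2).symm

theorem conj_smul_of_fix {k n : G} {a : X} (hk : k • a = a) : k • n • a = (k * n * k⁻¹) • a := by
  have : k⁻¹ • a = a := by rw [inv_smul_eq_iff, hk]
  rw [mul_smul, mul_smul, this]

theorem comm_of_sq (N : Subgroup G) (hsq : ∀ n ∈ N, n ^ 2 = 1) : IsMulCommutative N := by
  refine ⟨⟨fun a b => Subtype.ext ?_⟩⟩
  have ha := hsq a a.2
  have hb := hsq b b.2
  have hab := hsq (a * b) (mul_mem a.2 b.2)
  rw [pow_two] at ha hb hab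
  have ha' : (a : G)⁻¹ = a := inv_eq_of_mul_eq_one_left ha
  have hb' : (b : G)⁻¹ = b := inv_eq_of_mul_eq_one_left hb
  have hab' : ((a : G) * b)⁻¹ = a * b := inv_eq_of_mul_eq_one_left hab
  rw [mul_inv_rev, ha', hb'] at hab'
  exact hab'.symm

theorem card_eq_of_regular (N : Subgroup G) (htrans : MulAction.IsPretransitive N X)
    (hreg : ∀ x : X, MulAction.stabilizer N x = ⊥) (a : X) :
    Function.Bijective (fun n : N => (n : G) • a) := by
  constructor
  · intro n m h
    exact Subtype.ext (free_of_reg N hreg n.2 m.2 h)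
  · intro x
    obtain ⟨n, hn⟩ := htrans.exists_smul_eq a x
    exact ⟨n, hn⟩

theorem two_prim_regular [Fintype X] (hX : 2 ≤ Fintype.card X)
    (h2 : MulAction.IsMultiplyPreprimitive G X 2) (N : Subgroup G) [N.Normal]
    (htrans : MulAction.IsPretransitive N X) (hreg : ∀ x : X, MulAction.stabilizer N x = ⊥) :
    Fintype.card X = 3 ∨ (IsMulCommutative N ∧ (∀ n ∈ N, n ^ 2 = 1) ∧
      ∃ m : ℕ, Fintype.card X = 2 ^ m) := by
  classical
  by_cases h3 : Fintype.card X = 3
  · left; exact h3
  right
  have hne : Nonempty X := Fintype.card_pos_iff.mp (by omega)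
  obtain ⟨a⟩ := hne
  have hprim : IsPreprimitive (fixingSubgroup G ({a} : Set X)) (ofFixingSubgroup G ({a} : Set X)) :=
    h2.isPreprimitive_ofFixingSubgroup (by simp; rfl)
  have hsq : ∀ n ∈ N, n ^ 2 = 1 := by
    intro n hn
    by_contra hn2
    have hninv : n ≠ n⁻¹ := by
      intro h
      apply hn2
      rw [pow_two]
      nth_rewrite 1 [h]
      exact inv_mul_cancel n
    have hn1 : n ≠ 1 := by
      rintro rfl
      simp at hn2
    let B : Set X := {n • a, n⁻¹ • a}
    have hB : IsBlock (fixingSubgroup G ({a} : Set X)) B := by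
      rw [isBlock_iff_smul_eq_of_mem]
      intro k y hy hky
      have hka : (k : G) • a = a := (mem_fixingSubgroup_iff G).mp k.2 a rfl
      set m := (k : G) * n * (k : G)⁻¹ with hm
      have hmN : m ∈ N := ‹N.Normal›.conj_mem n hn k
      have e1 : k • (n • a) = m • a := conj_smul_of_fix hka
      have e2 : k • (n⁻¹ • a) = m⁻¹ • a := by
        have : (k : G) • n⁻¹ • a = ((k : G) * n⁻¹ * (k : G)⁻¹) • a := conj_smul_of_fix hka
        rw [hm]
        simp only [mul_inv_rev, inv_inv, mul_assoc] at this ⊢
        exact this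
      have hkB : k • B = {m • a, m⁻¹ • a} := by
        simp only [B, Set.smul_set_insert, Set.smul_set_singleton, e1, e2]
      have hmn : m = n ∨ m = n⁻¹ := by
        rcases hy with rfl | rfl
        · rw [e1] at hky
          rcases hky with h | h
          · left; exact free_of_reg N hreg hmN hn h
          · right; exact free_of_reg N hreg hmN (inv_mem hn) h
        · rw [e2] at hky
          rcases hky with h | h
          · right
            have := free_of_reg N hreg (inv_mem hmN) hn h
            rw [← this, inv_inv]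
          · left
            exact inv_injective (free_of_reg N hreg (inv_mem hmN) (inv_mem hn) h)
      rw [hkB]
      rcases hmn with h | h
      · rw [h]
      · rw [h, inv_inv, Set.pair_comm]
    have hna : n • a ≠ a := fun h => hn1 (free_of_reg N hreg hn (one_mem _) (by rw [h, one_smul]))
    have hna' : n⁻¹ • a ≠ a := fun h => hn1 (inv_eq_one.mp
      (free_of_reg N hreg (inv_mem hn) (one_mem _) (by rw [h, one_smul])))
    have hnn : n • a ≠ n⁻¹ • a := fun h => hninv (free_of_reg N hreg hn (inv_mem hn) h)
    have hB' := hB.subtype_val_preimage (C := ofFixingSubgroup G ({a} : Set X))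
    rcases hprim.isTrivialBlock_of_isBlock hB' with hsub | huniv
    · have m1 : (⟨n • a, by simpa [mem_ofFixingSubgroup_iff] using hna⟩ :
          ofFixingSubgroup G ({a} : Set X)) ∈ (Subtype.val ⁻¹' B : Set _) := by
        simp [B]
      have m2 : (⟨n⁻¹ • a, by simpa [mem_ofFixingSubgroup_iff] using hna'⟩ :
          ofFixingSubgroup G ({a} : Set X)) ∈ (Subtype.val ⁻¹' B : Set _) := by
        simp [B]
      exact hnn (congrArg Subtype.val (hsub m1 m2))
    · apply h3
      have : (Finset.univ : Finset X) = {a, n • a, n⁻¹ • a} := by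
        ext x
        simp only [Finset.mem_univ, Finset.mem_insert, Finset.mem_singleton, true_iff]
        by_cases hx : x = a
        · left; exact hx
        · right
          have : (⟨x, by simpa [mem_ofFixingSubgroup_iff] using hx⟩ :
            ofFixingSubgroup G ({a} : Set X)) ∈ (Subtype.val ⁻¹' B : Set _) := by
            rw [huniv]; trivial
          exact this
      rw [← Finset.card_univ, this]
      exact Finset.card_eq_three.mpr ⟨a, n • a, n⁻¹ • a, hna.symm, hna'.symm, hnn, rfl⟩
  refine ⟨comm_of_sq N hsq, hsq, ?_⟩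
  have hbij := card_eq_of_regular N htrans hreg a
  have : Finite N := Finite.of_injective _ hbij.1
  have hPG : IsPGroup 2 N := by
    intro g
    refine ⟨1, ?_⟩
    rw [pow_one]
    exact Subtype.ext (by simpa using hsq g g.2)
  have : Fact (Nat.Prime 2) := ⟨Nat.prime_two⟩
  obtain ⟨m, hm⟩ := IsPGroup.iff_card.mp hPG
  refine ⟨m, ?_⟩
  rw [← hm, ← Nat.card_eq_fintype_card]
  exact (Nat.card_congr (Equiv.ofBijective _ hbij)).symm

theorem three_prim_regular [Fintype X] (hX : 3 ≤ Fintype.card X)
    (h3 : MulAction.IsMultiplyPreprimitive G X 3) (N : Subgroup G) [N.Normal]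
    (htrans : MulAction.IsPretransitive N X) (hreg : ∀ x : X, MulAction.stabilizer N x = ⊥) :
    Fintype.card X = 3 ∨ Fintype.card X = 4 := by
  classical
  have hcardE : (3 : ℕ∞) ≤ ENat.card X := by
    rw [ENat.card_eq_coe_fintype_card]
    exact_mod_cast hX
  have h2 : MulAction.IsMultiplyPreprimitive G X 2 :=
    isMultiplyPreprimitive_of_le G X h3 (by norm_num) (by exact_mod_cast hcardE)
  rcases two_prim_regular (by omega) h2 N htrans hreg with h | ⟨_, hsq, _⟩
  · left; exact h
  -- pick three distinct points
  obtain ⟨a, b, c, hab, hac, hbc⟩ := Fintype.two_lt_card_iff.mp (by omega : 2 < Fintype.card X)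
  obtain ⟨⟨n, hn⟩, hnb⟩ := htrans.exists_smul_eq a b
  obtain ⟨⟨m, hm⟩, hmc⟩ := htrans.exists_smul_eq a c
  change n • a = b at hnb
  change m • a = c at hmc
  have hnn : n * n = 1 := by rw [← pow_two]; exact hsq n hn
  have hprim : IsPreprimitive (fixingSubgroup G ({a, b} : Set X))
      (ofFixingSubgroup G ({a, b} : Set X)) :=
    h3.isPreprimitive_ofFixingSubgroup (by rw [Set.encard_pair hab]; rfl)
  let B : Set X := {m • a, (m * n) • a}
  have hB : IsBlock (fixingSubgroup G ({a, b} : Set X)) B := by
    rw [isBlock_iff_smul_eq_of_mem]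
    intro k y hy hky
    have hka : (k : G) • a = a := (mem_fixingSubgroup_iff G).mp k.2 a (by simp)
    have hkb : (k : G) • b = b := (mem_fixingSubgroup_iff G).mp k.2 b (by simp)
    have hkn : (k : G) * n * (k : G)⁻¹ = n := by
      apply free_of_reg N hreg (‹N.Normal›.conj_mem n hn k) hn (x := a)
      rw [← conj_smul_of_fix hka, hnb, hkb]
    set m' := (k : G) * m * (k : G)⁻¹ with hm'
    have hmN : m' ∈ N := ‹N.Normal›.conj_mem m hm k
    have e1 : k • (m • a) = m' • a := conj_smul_of_fix hka
    have e2 : k • ((m * n) • a) = (m' * n) • a := by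
      have : (k : G) • (m * n) • a = ((k : G) * (m * n) * (k : G)⁻¹) • a := conj_smul_of_fix hka
      have h2 : (k : G) * (m * n) * (k : G)⁻¹ = m' * n := by
        conv_rhs => rw [← hkn]
        rw [hm']
        group
      rw [h2] at this
      exact this
    have hkB : k • B = {m' • a, (m' * n) • a} := by
      simp only [B, Set.smul_set_insert, Set.smul_set_singleton, e1, e2]
    have hmn : m' = m ∨ m' = m * n := by
      rcases hy with rfl | rfl
      · rw [e1] at hky
        rcases hky with h | h
        · left; exact free_of_reg N hreg hmN hm h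
        · right; exact free_of_reg N hreg hmN (mul_mem hm hn) h
      · rw [e2] at hky
        rcases hky with h | h
        · right
          have := free_of_reg N hreg (mul_mem hmN hn) hm h
          rw [← this, mul_assoc, hnn, mul_one]
        · left
          exact mul_right_cancel (free_of_reg N hreg (mul_mem hmN hn) (mul_mem hm hn) h)
    rw [hkB]
    rcases hmn with h | h
    · rw [h]
    · rw [h, mul_assoc, hnn, mul_one, Set.pair_comm]
  have hB' := hB.subtype_val_preimage (C := ofFixingSubgroup G ({a, b} : Set X))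
  have hm1 : m ≠ 1 := by
    rintro rfl
    rw [one_smul] at hmc
    exact hac hmc
  have hmn1 : m ≠ n := by
    rintro rfl
    exact hbc (hnb.symm.trans hmc)
  have d1 : (m * n) • a ≠ a := by
    intro h
    have := free_of_reg N hreg (mul_mem hm hn) (one_mem _) (x := a) (by rw [h, one_smul])
    apply hmn1
    have h2 : m * n * n = n := by rw [this, one_mul]
    rwa [mul_assoc, hnn, mul_one] at h2
  have d2 : (m * n) • a ≠ b := by
    intro h
    rw [← hnb] at h
    have := free_of_reg N hreg (mul_mem hm hn) hn h
    apply hm1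
    exact mul_eq_right.mp this
  have d3 : m • a ≠ (m * n) • a := by
    intro h
    have := free_of_reg N hreg hm (mul_mem hm hn) h
    have hn1 : n = 1 := by simpa using this.symm
    rw [hn1, one_smul] at hnb
    exact hab hnb
  rcases hprim.isTrivialBlock_of_isBlock hB' with hsub | huniv
  · exfalso
    have m1 : (⟨m • a, by
        simp only [mem_ofFixingSubgroup_iff, Set.mem_insert_iff, Set.mem_singleton_iff, not_or]
        exact ⟨by rw [hmc]; exact hac.symm, by rw [hmc]; exact hbc.symm⟩⟩ :
        ofFixingSubgroup G ({a, b} : Set X)) ∈ (Subtype.val ⁻¹' B : Set _) := by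
      simp [B]
    have m2 : (⟨(m * n) • a, by
        simp only [mem_ofFixingSubgroup_iff, Set.mem_insert_iff, Set.mem_singleton_iff, not_or]
        exact ⟨d1, d2⟩⟩ :
        ofFixingSubgroup G ({a, b} : Set X)) ∈ (Subtype.val ⁻¹' B : Set _) := by
      simp [B]
    exact d3 (congrArg Subtype.val (hsub m1 m2))
  · have : (Finset.univ : Finset X) ⊆ {a, b, m • a, (m * n) • a} := by
      intro x _
      simp only [Finset.mem_insert, Finset.mem_singleton]
      by_cases hx : x = a
      · left; exact hx
      by_cases hx' : x = b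
      · right; left; exact hx'
      · right; right
        have : (⟨x, by
          simp only [mem_ofFixingSubgroup_iff, Set.mem_insert_iff, Set.mem_singleton_iff, not_or]
          exact ⟨hx, hx'⟩⟩ :
          ofFixingSubgroup G ({a, b} : Set X)) ∈ (Subtype.val ⁻¹' B : Set _) := by
          rw [huniv]; trivial
        exact this
    have h4 := Finset.card_le_card this
    rw [Finset.card_univ] at h4
    have h5 : ({a, b, m • a, (m * n) • a} : Finset X).card ≤ 4 := Finset.card_le_four
    omega

end

end Cfsg.Agent.Lib.Helper15
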