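import Cfsg.Agent.Lib.Helper15.Sharp2
import Cfsg.Agent.Lib.Helper15.RegNormal

set_option autoImplicit false

namespace Cfsg.Agent.Lib.Helper15

open MulAction SubMulAction

universe u v

section
variable {G : Type u} [Group G] {X : Type v} [MulAction G X]

def stabMap (N : Subgroup G) (a : X) : (N.subgroupOf (stabilizer G a)) → stabilizer N a :=
  fun g => ⟨⟨g.1.1, g.2⟩, g.1.2⟩

def stabHom (N : Subgroup G) (a : X) : ofStabilizer G a →ₑ[stabMap N a] ofStabilizer N a where
  toFun x := ⟨x.1, x.2⟩
  map_smul' _ _ := rfl

theorem stabMap_surj (N : Subgroup G) (a : X) : Function.Surjective (stabMap N a) :=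
  fun g => ⟨⟨⟨g.1.1, g.2⟩, g.1.2⟩, rfl⟩

theorem stabHom_bij (N : Subgroup G) (a : X) : Function.Bijective (stabHom N a) :=
  ⟨fun _ _ h => Subtype.ext (congrArg (fun z : ofStabilizer N a => z.1) h),
   fun y => ⟨⟨y.1, y.2⟩, rfl⟩⟩

theorem transfer_stab (N : Subgroup G) (a : X) (m : ℕ) :
    IsMultiplyPretransitive (N.subgroupOf (stabilizer G a)) (ofStabilizer G a) m ↔
      IsMultiplyPretransitive (stabilizer N a) (ofStabilizer N a) m :=
  IsPretransitive.of_embedding_congr (stabMap_surj N a) (stabHom_bij N a)

theorem mt_succ_of_stab (N : Subgroup G) [IsPretransitive N X] (a : X) (m : ℕ)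
    (h : IsMultiplyPretransitive (N.subgroupOf (stabilizer G a)) (ofStabilizer G a) m) :
    IsMultiplyPretransitive N X (m + 1) :=
  ofStabilizer.isMultiplyPretransitive.mpr ((transfer_stab N a m).mp h)

theorem faithful_stab [FaithfulSMul G X] (a : X) :
    FaithfulSMul (stabilizer G a) (ofStabilizer G a) := by
  constructor
  intro g h H
  apply Subtype.ext
  apply FaithfulSMul.eq_of_smul_eq_smul (α := X)
  intro x
  by_cases hx : x = a
  · subst hx
    rw [g.2, h.2]
  · exact congrArg Subtype.val (H ⟨x, hx⟩)

theorem normal_trans [IsPreprimitive G X] [FaithfulSMul G X] (N : Subgroup G) [N.Normal]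
    (hN : N ≠ ⊥) : IsPretransitive N X := by
  apply IsQuasiPreprimitive.isPretransitive_of_normal
  intro h
  apply hN
  rw [eq_bot_iff]
  intro n hn
  rw [Subgroup.mem_bot]
  apply FaithfulSMul.eq_of_smul_eq_smul (α := X)
  intro x
  rw [one_smul]
  have : x ∈ fixedPoints N X := by rw [h]; trivial
  exact this ⟨n, hn⟩

theorem sharp2_of (N : Subgroup G) [IsPretransitive N X] (a : X)
    (ht : IsPretransitive (N.subgroupOf (stabilizer G a)) (ofStabilizer G a))
    (hs : ∀ g ∈ N, g • a = a → ∀ b, b ≠ a → g • b = b → g = 1) : Sharp2 N X where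
  trans2 := by
    have : IsMultiplyPretransitive N X 2 := mt_succ_of_stab N a 1 (is_one_pretransitive_iff.mpr ht)
    intro a b c d hab hcd
    exact (is_two_pretransitive_iff.mp this) hab hcd
  sharp := by
    intro g x y hxy hx hy
    obtain ⟨k, hk⟩ := exists_smul_eq N x a
    have hkx : k⁻¹ • a = x := by rw [inv_smul_eq_iff, hk]
    have h1 : ((k * g * k⁻¹ : N) : G) = 1 := by
      apply hs _ (k * g * k⁻¹).2 ?_ (k • y) ?_ ?_
      · change (k * g * k⁻¹) • a = a
        rw [mul_smul, mul_smul, hkx, hx, hk]
      · intro h
        rw [← hk] at h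
        exact hxy (MulAction.injective k h).symm
      · change (k * g * k⁻¹) • k • y = k • y
        rw [mul_smul, mul_smul, inv_smul_smul, hy]
    have h2 : k * g * k⁻¹ = 1 := Subtype.ext h1
    have h3 : g = k⁻¹ * (k * g * k⁻¹) * k := by group
    rw [h3, h2]
    group

theorem exists_regular_normal (N : Subgroup G) [hNn : N.Normal] [Finite N] [Finite X]
    (hS : Sharp2 N X) (hn : 2 ≤ Nat.card X) :
    ∃ M : Subgroup G, M.Normal ∧ IsPretransitive M X ∧ ∀ x : X, stabilizer M x = ⊥ := by
  refine ⟨(hS.kernel hn).map N.subtype, ?_, ?_, ?_⟩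
  · constructor
    rintro _ ⟨m, hm, rfl⟩ g
    refine ⟨⟨g * m * g⁻¹, hNn.conj_mem m m.2 g⟩, ?_, rfl⟩
    rcases hm with rfl | hm
    · left
      apply Subtype.ext
      simp
    · right
      intro x hx
      apply hm (g⁻¹ • x)
      change (m : G) • g⁻¹ • x = g⁻¹ • x
      change (g * m * g⁻¹) • x = x at hx
      rw [mul_smul, mul_smul, smul_eq_iff_eq_inv_smul] at hx
      exact hx
  · constructor
    intro x y
    obtain ⟨m, hm, hmx⟩ := hS.kernel_trans hn x y
    exact ⟨⟨m.1, ⟨m, hm, rfl⟩⟩, hmx⟩
  · intro x
    rw [eq_bot_iff]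
    rintro ⟨_, m, hm, rfl⟩ hfix
    rw [Subgroup.mem_bot]
    apply Subtype.ext
    have : m = 1 := hS.kernel_free hn hm (a := x) hfix
    exact congrArg (fun z : N => z.1) this

theorem finite_of_faithful [Finite X] [FaithfulSMul G X] : Finite G :=
  Finite.of_injective (MulAction.toPermHom G X) MulAction.toPerm_injective

theorem card_ofStabilizer [Finite X] (a : X) : Nat.card (ofStabilizer G a) + 1 = Nat.card X :=
  nat_card_ofStabilizer_add_one_eq G a

end

theorem jordan_normal : ∀ (m : ℕ) {G : Type u} {X : Type v} [Group G] [MulAction G X] [Finite X]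
    [FaithfulSMul G X], m + 2 < Nat.card X → IsMultiplyPretransitive G X (m + 2) →
    ∀ (N : Subgroup G) [N.Normal], N ≠ ⊥ →
    IsMultiplyPretransitive N X (m + 1) ∨ (m = 1 ∧ IsMulCommutative N ∧ ∀ n ∈ N, n ^ 2 = 1) := by
  intro m
  induction m with
  | zero =>
    intro G X _ _ _ _ hcard hG N _ hN
    left
    have : IsPreprimitive G X := isPreprimitive_of_is_two_pretransitive hG
    have := normal_trans (X := X) N hN
    exact is_one_pretransitive_iff.mpr this
  | succ m ih =>
    intro G X _ _ _ _ hcard hG N _ hN
    have hfin : Finite G := finite_of_faithful (X := X)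
    have := Fintype.ofFinite X
    have hcardF : Nat.card X = Fintype.card X := Nat.card_eq_fintype_card
    have h2t : IsMultiplyPretransitive G X 2 :=
      isMultiplyPretransitive_of_le (n := m + 1 + 2) (by omega) (by omega)
    have h3t : IsMultiplyPretransitive G X 3 :=
      isMultiplyPretransitive_of_le (n := m + 1 + 2) (by omega) (by omega)
    have hprim : IsPreprimitive G X := isPreprimitive_of_is_two_pretransitive h2t
    have hGt : IsPretransitive G X := hprim.toIsPretransitive
    have hNt : IsPretransitive N X := normal_trans N hN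
    have hE : ∀ j : ℕ, j ≤ Nat.card X → (j : ℕ∞) ≤ ENat.card X := by
      intro j hj
      rw [ENat.card_eq_coe_fintype_card]
      rw [hcardF] at hj
      exact_mod_cast hj
    -- a 4-transitive group of degree > 4 has no regular normal subgroup
    have no_reg4 : 1 ≤ m → ∀ M : Subgroup G, M.Normal → IsPretransitive M X →
        (∀ x : X, stabilizer M x = ⊥) → False := by
      intro hm M hMn hMt hMr
      have h4t : IsMultiplyPretransitive G X (Nat.succ 3) :=
        isMultiplyPretransitive_of_le (n := m + 1 + 2) (by omega) (by omega)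
      have h3p : IsMultiplyPreprimitive G X 3 :=
        isMultiplyPreprimitive_of_isMultiplyPretransitive_succ G X (hE _ (by omega))
      rcases three_prim_regular (by omega) h3p M hMt hMr with h | h <;> omega
    by_cases hreg : ∀ x : X, stabilizer N x = ⊥
    · have h3t' : IsMultiplyPretransitive G X (Nat.succ 2) := h3t
      have h2p : IsMultiplyPreprimitive G X 2 :=
        isMultiplyPreprimitive_of_isMultiplyPretransitive_succ G X (hE _ (by omega))
      rcases two_prim_regular (by omega) h2p N hNt hreg with h | ⟨hc, hsq, _⟩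
      · omega
      · rcases Nat.eq_zero_or_pos m with hm | hm
        · right
          exact ⟨by omega, hc, hsq⟩
        · exact (no_reg4 hm N inferInstance hNt hreg).elim
    · push Not at hreg
      obtain ⟨a, ha⟩ := hreg
      have hf' : FaithfulSMul (stabilizer G a) (ofStabilizer G a) := faithful_stab a
      have hc' := card_ofStabilizer (G := G) a
      have hG' : IsMultiplyPretransitive (stabilizer G a) (ofStabilizer G a) (m + 2) :=
        ofStabilizer.isMultiplyPretransitive.mp hG
      have hN' : N.subgroupOf (stabilizer G a) ≠ ⊥ := by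
        intro h
        apply ha
        rw [eq_bot_iff]
        intro g hg
        have : (⟨g.1, hg⟩ : stabilizer G a) ∈ N.subgroupOf (stabilizer G a) := g.2
        rw [h, Subgroup.mem_bot] at this
        rw [Subgroup.mem_bot]
        exact Subtype.ext (congrArg (fun z : stabilizer G a => z.1) this)
      rcases ih (G := stabilizer G a) (X := ofStabilizer G a) (by omega) hG'
        (N.subgroupOf (stabilizer G a)) hN' with h | ⟨hm, hc, _⟩
      · left
        exact mt_succ_of_stab N a (m + 1) h
      · exfalso
        have h2t' : IsMultiplyPretransitive (stabilizer G a) (ofStabilizer G a) 2 :=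
          isMultiplyPretransitive_of_le (n := m + 2) (by omega) (by omega)
        have hprim' : IsPreprimitive (stabilizer G a) (ofStabilizer G a) :=
          isPreprimitive_of_is_two_pretransitive h2t'
        have hNt' := normal_trans (X := ofStabilizer G a) (N.subgroupOf (stabilizer G a)) hN'
        have hs : ∀ g ∈ N, g • a = a → ∀ b, b ≠ a → g • b = b → g = 1 := by
          intro g hg hga b hb hgb
          let g' : stabilizer G a := ⟨g, hga⟩
          have hg' : g' ∈ N.subgroupOf (stabilizer G a) := hg
          have : g' = 1 := by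
            apply FaithfulSMul.eq_of_smul_eq_smul (α := ofStabilizer G a)
            intro x
            obtain ⟨k, hk⟩ := hNt'.exists_smul_eq ⟨b, hb⟩ x
            have hcomm : (⟨g', hg'⟩ : N.subgroupOf (stabilizer G a)) * k = k * ⟨g', hg'⟩ :=
              hc.is_comm.comm _ _
            have hgb' : (⟨g', hg'⟩ : N.subgroupOf (stabilizer G a)) •
                (⟨b, hb⟩ : ofStabilizer G a) = ⟨b, hb⟩ := Subtype.ext hgb
            rw [one_smul, ← hk]
            change (⟨g', hg'⟩ : N.subgroupOf (stabilizer G a)) • k • (⟨b, hb⟩ : ofStabilizer G a) = _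
            rw [← mul_smul, hcomm, mul_smul, hgb']
          exact congrArg Subtype.val this
        have hS := sharp2_of N a hNt' hs
        obtain ⟨M, hMn, hMt, hMr⟩ := exists_regular_normal N hS (by omega)
        exact no_reg4 (by omega) M hMn hMt hMr

theorem prim_normal : ∀ (m : ℕ) {G : Type u} {X : Type v} [Group G] [MulAction G X] [Finite X]
    [FaithfulSMul G X], m + 1 ≤ Nat.card X → IsMultiplyPreprimitive G X (m + 1) →
    ¬ IsMultiplyPretransitive G X (Nat.card X - 1) →
    ∀ (H : Subgroup G) [H.Normal], (∃ a : X, stabilizer H a ≠ ⊥) →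
    IsMultiplyPretransitive H X (m + 1) := by
  intro m
  induction m with
  | zero =>
    intro G X _ _ _ _ hcard hG _ H _ hH
    have : IsPreprimitive G X := (is_one_preprimitive_iff G X).mp hG
    have hH' : H ≠ ⊥ := by
      rintro rfl
      obtain ⟨a, ha⟩ := hH
      apply ha
      rw [eq_bot_iff]
      intro g _
      rw [Subgroup.mem_bot]
      exact Subsingleton.elim _ _
    have := normal_trans (X := X) H hH'
    exact is_one_pretransitive_iff.mpr this
  | succ m ih =>
    intro G X _ _ _ _ hcard hG hnot H _ hH
    have hfin : Finite G := finite_of_faithful (X := X)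
    have := Fintype.ofFinite X
    have hcardF : Nat.card X = Fintype.card X := Nat.card_eq_fintype_card
    have hE : ∀ j : ℕ, j ≤ Nat.card X → (j : ℕ∞) ≤ ENat.card X := by
      intro j hj
      rw [ENat.card_eq_coe_fintype_card]
      rw [hcardF] at hj
      exact_mod_cast hj
    have h1p : IsMultiplyPreprimitive G X 1 :=
      isMultiplyPreprimitive_of_le G X hG (by omega) (hE _ hcard)
    have hprim : IsPreprimitive G X := (is_one_preprimitive_iff G X).mp h1p
    have hGt : IsPretransitive G X := hprim.toIsPretransitive
    have hH' : H ≠ ⊥ := by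
      rintro rfl
      obtain ⟨a, ha⟩ := hH
      apply ha
      rw [eq_bot_iff]
      intro g _
      rw [Subgroup.mem_bot]
      exact Subsingleton.elim _ _
    have hHt : IsPretransitive H X := normal_trans H hH'
    obtain ⟨a, ha⟩ := hH
    have hf' : FaithfulSMul (stabilizer G a) (ofStabilizer G a) := faithful_stab a
    have hc' := card_ofStabilizer (G := G) a
    have hG'' : IsMultiplyPreprimitive G X (Nat.succ (m + 1)) := hG
    have hG' : IsMultiplyPreprimitive (stabilizer G a) (ofStabilizer G a) (m + 1) :=
      isMultiplyPreprimitive_ofStabilizer G X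
    have hN' : H.subgroupOf (stabilizer G a) ≠ ⊥ := by
      intro h
      apply ha
      rw [eq_bot_iff]
      intro g hg
      have : (⟨g.1, hg⟩ : stabilizer G a) ∈ H.subgroupOf (stabilizer G a) := g.2
      rw [h, Subgroup.mem_bot] at this
      rw [Subgroup.mem_bot]
      exact Subtype.ext (congrArg (fun z : stabilizer G a => z.1) this)
    have hnot' : ¬ IsMultiplyPretransitive (stabilizer G a) (ofStabilizer G a)
        (Nat.card (ofStabilizer G a) - 1) := by
      intro h
      apply hnot
      have h2 := (ofStabilizer.isMultiplyPretransitive (G := G) (a := a)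
        (n := Nat.card (ofStabilizer G a) - 1)).mpr h
      have e : (Nat.card (ofStabilizer G a) - 1).succ = Nat.card X - 1 := by omega
      rwa [e] at h2
    by_cases hsr : ∃ b : ofStabilizer G a, stabilizer (H.subgroupOf (stabilizer G a)) b ≠ ⊥
    · have := ih (G := stabilizer G a) (X := ofStabilizer G a) (by omega) hG' hnot'
        (H.subgroupOf (stabilizer G a)) hsr
      exact mt_succ_of_stab H a (m + 1) this
    · push Not at hsr
      have hE' : ((m + 1 : ℕ) : ℕ∞) ≤ ENat.card (ofStabilizer G a) := by
        have := Fintype.ofFinite (ofStabilizer G a)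
        rw [ENat.card_eq_coe_fintype_card, ← Nat.card_eq_fintype_card]
        exact_mod_cast (by omega : m + 1 ≤ Nat.card (ofStabilizer G a))
      have h1p' : IsMultiplyPreprimitive (stabilizer G a) (ofStabilizer G a) 1 :=
        isMultiplyPreprimitive_of_le _ _ hG' (by omega) hE'
      have hprim' : IsPreprimitive (stabilizer G a) (ofStabilizer G a) :=
        (is_one_preprimitive_iff _ _).mp h1p'
      have hNt' := normal_trans (X := ofStabilizer G a) (H.subgroupOf (stabilizer G a)) hN'
      rcases Nat.eq_zero_or_pos m with hm | hm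
      · subst hm
        exact mt_succ_of_stab H a 1 (is_one_pretransitive_iff.mpr hNt')
      · exfalso
        have hs : ∀ g ∈ H, g • a = a → ∀ b, b ≠ a → g • b = b → g = 1 := by
          intro g hg hga b hb hgb
          have hmem : (⟨⟨g, hga⟩, hg⟩ : H.subgroupOf (stabilizer G a)) ∈
              stabilizer (H.subgroupOf (stabilizer G a)) (⟨b, hb⟩ : ofStabilizer G a) := by
            rw [mem_stabilizer_iff]
            exact Subtype.ext hgb
          rw [hsr, Subgroup.mem_bot] at hmem
          exact congrArg (fun z : H.subgroupOf (stabilizer G a) => z.1.1) hmem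
        have hS := sharp2_of H a hNt' hs
        obtain ⟨M, hMn, hMt, hMr⟩ := exists_regular_normal H hS (by omega)
        have h3p : IsMultiplyPreprimitive G X 3 :=
          isMultiplyPreprimitive_of_le G X hG (by omega) (hE _ hcard)
        have hGk : IsMultiplyPretransitive G X (m + 1 + 1) := hG.isMultiplyPretransitive
        apply hnot
        rcases three_prim_regular (by omega) h3p M hMt hMr with h | h
        · rw [hcardF, h]
          exact isMultiplyPretransitive_of_le (n := m + 1 + 1) (by omega) (by omega)
        · rw [hcardF, h]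
          exact isMultiplyPretransitive_of_le (n := m + 1 + 1) (by omega) (by omega)

end Cfsg.Agent.Lib.Helper15
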