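import Cfsg.Prelude.Def_Perm
import Mathlib

set_option autoImplicit false

namespace Cfsg.Agent.Lib.Helper15

open Cfsg

variable {F : Type*} [NearField F]

theorem nf_add_mul (a b c : F) : (a + b) * c = a * c + b * c := NearField.right_distrib a b c

theorem nf_mul_zero (a : F) : a * 0 = 0 := NearField.mul_zero a

theorem nf_zero_mul (a : F) : 0 * a = 0 := by
  have h := nf_add_mul (0 : F) 0 a
  rw [add_zero] at h
  simpa using h

theorem nf_neg_mul (x a : F) : (-x) * a = -(x * a) := by
  have h := nf_add_mul (-x) x a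
  rw [neg_add_cancel, nf_zero_mul] at h
  exact eq_neg_of_add_eq_zero_left h.symm

theorem nf_sub_mul (x y a : F) : (x - y) * a = x * a - y * a := by
  rw [sub_eq_add_neg, nf_add_mul, nf_neg_mul, ← sub_eq_add_neg]

theorem nf_one_ne_zero : (1 : F) ≠ 0 := fun h => NearField.zero_ne_one h.symm

theorem nf_mul_ne_zero {a b : F} (ha : a ≠ 0) (hb : b ≠ 0) : a * b ≠ 0 := by
  intro h
  obtain ⟨b', hb1, _⟩ := NearField.exists_inv b hb
  apply ha
  have : a * b * b' = 0 * b' := by rw [h]
  rwa [mul_assoc, hb1, mul_one, nf_zero_mul] at this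

theorem nf_mul_right_cancel {a b c : F} (hc : c ≠ 0) (h : a * c = b * c) : a = b := by
  obtain ⟨c', hc1, _⟩ := NearField.exists_inv c hc
  have : a * c * c' = b * c * c' := by rw [h]
  rwa [mul_assoc, mul_assoc, hc1, mul_one, mul_one] at this

theorem nf_mul_left_cancel {a b c : F} (hc : c ≠ 0) (h : c * a = c * b) : a = b := by
  obtain ⟨c', _, hc2⟩ := NearField.exists_inv c hc
  have : c' * (c * a) = c' * (c * b) := by rw [h]
  rwa [← mul_assoc, ← mul_assoc, hc2, one_mul, one_mul] at this

end Cfsg.Agent.Lib.Helper15
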