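import Cfsg.Agent.Lib.Helper15.Sharp2
import Cfsg.Prelude.Def_Perm

set_option autoImplicit false
set_option linter.unusedSectionVars false

namespace Cfsg.Agent.Lib.Helper15

namespace Sharp2

variable {G α : Type*} [Group G] [MulAction G α] [Finite G] [Finite α]
variable (h : Sharp2 G α) (hn : 2 ≤ Nat.card α) (o e : α)

noncomputable def tau (x : α) : G := Classical.choose (h.kernel_trans hn o x)

theorem tau_mem (x : α) : h.tau hn o x ∈ h.kernel hn :=
  (Classical.choose_spec (h.kernel_trans hn o x)).1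

theorem tau_smul (x : α) : h.tau hn o x • o = x :=
  (Classical.choose_spec (h.kernel_trans hn o x)).2

theorem tau_unique {g : G} (hg : g ∈ h.kernel hn) {x : α} (hgx : g • o = x) :
    g = h.tau hn o x := by
  have : (h.tau hn o x)⁻¹ * g = 1 := by
    apply h.kernel_free hn (mul_mem (inv_mem (h.tau_mem hn o x)) hg) (a := o)
    rw [mul_smul, hgx, inv_smul_eq_iff, tau_smul]
  exact (inv_mul_eq_one.mp this).symm

theorem tau_zero : h.tau hn o o = 1 := (h.tau_unique hn o (one_mem _) (one_smul _ _)).symm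

noncomputable def sadd (x y : α) : α := h.tau hn o x • y

theorem tau_sadd (x y : α) : h.tau hn o (h.sadd hn o x y) = h.tau hn o x * h.tau hn o y := by
  symm
  apply h.tau_unique hn o (mul_mem (h.tau_mem hn o x) (h.tau_mem hn o y))
  rw [mul_smul, tau_smul, sadd]

theorem sadd_assoc (x y z : α) :
    h.sadd hn o (h.sadd hn o x y) z = h.sadd hn o x (h.sadd hn o y z) := by
  conv_lhs => rw [sadd, tau_sadd, mul_smul]
  rfl

theorem sadd_comm (x y : α) : h.sadd hn o x y = h.sadd hn o y x := by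
  have h1 : h.sadd hn o x y = (h.tau hn o x * h.tau hn o y) • o := by
    rw [mul_smul, tau_smul, sadd]
  have h2 : h.sadd hn o y x = (h.tau hn o y * h.tau hn o x) • o := by
    rw [mul_smul, tau_smul, sadd]
  rw [h1, h2, h.kernel_comm hn _ _ (h.tau_mem hn o x) (h.tau_mem hn o y)]

theorem zero_sadd (y : α) : h.sadd hn o o y = y := by rw [sadd, tau_zero, one_smul]

theorem sadd_zero (x : α) : h.sadd hn o x o = x := by rw [sadd, tau_smul]

noncomputable def sneg (x : α) : α := (h.tau hn o x)⁻¹ • o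

theorem tau_sneg (x : α) : h.tau hn o (h.sneg hn o x) = (h.tau hn o x)⁻¹ :=
  (h.tau_unique hn o (inv_mem (h.tau_mem hn o x)) rfl).symm

theorem sneg_sadd (x : α) : h.sadd hn o (h.sneg hn o x) x = o := by
  rw [sadd, tau_sneg, inv_smul_eq_iff, tau_smul]

variable (hoe : o ≠ e)

open Classical in
noncomputable def mu (a : α) : G :=
  if ha : a = o then 1 else Classical.choose (h.trans2 hoe (Ne.symm ha))

theorem mu_zero {a : α} (ha : a ≠ o) : h.mu o e hoe a • o = o := by
  rw [mu, dif_neg ha]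
  exact (Classical.choose_spec (h.trans2 hoe (Ne.symm ha))).1

theorem mu_one {a : α} (ha : a ≠ o) : h.mu o e hoe a • e = a := by
  rw [mu, dif_neg ha]
  exact (Classical.choose_spec (h.trans2 hoe (Ne.symm ha))).2

theorem mu_unique {g : G} {a : α} (ha : a ≠ o) (h0 : g • o = o) (h1 : g • e = a) :
    g = h.mu o e hoe a :=
  h.eq_of_two hoe (by rw [h0, mu_zero h o e hoe ha]) (by rw [h1, mu_one h o e hoe ha])

theorem mu_e : h.mu o e hoe e = 1 :=
  (h.mu_unique o e hoe (Ne.symm hoe) (one_smul _ _) (one_smul _ _)).symm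

theorem mu_smul_ne {a x : α} (ha : a ≠ o) (hx : x ≠ o) : h.mu o e hoe a • x ≠ o := by
  intro hh
  apply hx
  have := h.mu_zero o e hoe ha
  exact MulAction.injective (h.mu o e hoe a) (hh.trans this.symm)

open Classical in
noncomputable def smulF (x a : α) : α := if a = o then o else h.mu o e hoe a • x

theorem smulF_zero (x : α) : h.smulF o e hoe x o = o := by rw [smulF, if_pos rfl]

theorem smulF_of_ne (x : α) {a : α} (ha : a ≠ o) : h.smulF o e hoe x a = h.mu o e hoe a • x := by
  rw [smulF, if_neg ha]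

theorem zero_smulF (a : α) : h.smulF o e hoe o a = o := by
  by_cases ha : a = o
  · rw [ha, smulF_zero]
  · rw [smulF_of_ne h o e hoe _ ha, mu_zero h o e hoe ha]

theorem smulF_one (x : α) : h.smulF o e hoe x e = x := by
  rw [smulF_of_ne h o e hoe _ (Ne.symm hoe), mu_e, one_smul]

theorem one_smulF (a : α) : h.smulF o e hoe e a = a := by
  by_cases ha : a = o
  · rw [ha, smulF_zero]
  · rw [smulF_of_ne h o e hoe _ ha, mu_one h o e hoe ha]

theorem mu_smulF {a b : α} (ha : a ≠ o) (hb : b ≠ o) :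
    h.mu o e hoe (h.smulF o e hoe a b) = h.mu o e hoe b * h.mu o e hoe a := by
  symm
  rw [smulF_of_ne h o e hoe _ hb]
  apply h.mu_unique o e hoe (h.mu_smul_ne o e hoe hb ha)
  · rw [mul_smul, mu_zero h o e hoe ha, mu_zero h o e hoe hb]
  · rw [mul_smul, mu_one h o e hoe ha]

theorem smulF_assoc (x a b : α) :
    h.smulF o e hoe (h.smulF o e hoe x a) b = h.smulF o e hoe x (h.smulF o e hoe a b) := by
  by_cases hb : b = o
  · rw [hb, smulF_zero, smulF_zero, smulF_zero]
  by_cases ha : a = o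
  · rw [ha, smulF_zero, zero_smulF, smulF_zero]
  have hab : h.smulF o e hoe a b ≠ o := by
    rw [smulF_of_ne h o e hoe _ hb]
    exact h.mu_smul_ne o e hoe hb ha
  rw [smulF_of_ne h o e hoe _ hab, mu_smulF h o e hoe ha hb, mul_smul,
    smulF_of_ne h o e hoe _ hb, smulF_of_ne h o e hoe _ ha]

theorem mu_conj_tau {c : α} (hc : c ≠ o) (x : α) :
    h.mu o e hoe c * h.tau hn o x * (h.mu o e hoe c)⁻¹ = h.tau hn o (h.mu o e hoe c • x) := by
  apply h.tau_unique hn o ((h.kernel_normal hn).conj_mem _ (h.tau_mem hn o x) _)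
  have : (h.mu o e hoe c)⁻¹ • o = o := by rw [inv_smul_eq_iff, mu_zero h o e hoe hc]
  rw [mul_smul, mul_smul, this, tau_smul]

theorem sadd_smulF (x y c : α) :
    h.smulF o e hoe (h.sadd hn o x y) c =
      h.sadd hn o (h.smulF o e hoe x c) (h.smulF o e hoe y c) := by
  by_cases hc : c = o
  · rw [hc, smulF_zero, smulF_zero, smulF_zero, zero_sadd]
  rw [smulF_of_ne h o e hoe _ hc, smulF_of_ne h o e hoe _ hc, smulF_of_ne h o e hoe _ hc]
  conv_rhs => rw [sadd, ← mu_conj_tau h hn o e hoe hc]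
  rw [sadd, mul_smul, mul_smul, inv_smul_smul]

theorem exists_inv_smulF {a : α} (ha : a ≠ o) :
    ∃ b : α, h.smulF o e hoe a b = e ∧ h.smulF o e hoe b a = e := by
  have hb : (h.mu o e hoe a)⁻¹ • e ≠ o := by
    intro hh
    rw [inv_smul_eq_iff, mu_zero h o e hoe ha] at hh
    exact hoe hh.symm
  have hmu : (h.mu o e hoe a)⁻¹ = h.mu o e hoe ((h.mu o e hoe a)⁻¹ • e) := by
    apply h.mu_unique o e hoe hb _ rfl
    rw [inv_smul_eq_iff, mu_zero h o e hoe ha]
  refine ⟨(h.mu o e hoe a)⁻¹ • e, ?_, ?_⟩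
  · rw [smulF_of_ne h o e hoe _ hb, ← hmu, inv_smul_eq_iff, mu_one h o e hoe ha]
  · rw [smulF_of_ne h o e hoe _ ha, smul_inv_smul]

@[instance_reducible]
noncomputable def addGroupS : AddGroup α :=
  letI : Add α := ⟨h.sadd hn o⟩
  letI : Zero α := ⟨o⟩
  letI : Neg α := ⟨h.sneg hn o⟩
  AddGroup.ofLeftAxioms (h.sadd_assoc hn o) (h.zero_sadd hn o) (h.sneg_sadd hn o)

@[instance_reducible]
noncomputable def monoidS : Monoid α where
  mul := h.smulF o e hoe
  mul_assoc := h.smulF_assoc o e hoe
  one := e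
  one_mul := h.one_smulF o e hoe
  mul_one := h.smulF_one o e hoe

@[instance_reducible]
noncomputable def nearField : Cfsg.NearField α :=
  { h.addGroupS hn o, h.monoidS o e hoe with
    right_distrib := h.sadd_smulF hn o e hoe
    mul_zero := h.smulF_zero o e hoe
    zero_ne_one := hoe
    exists_inv := fun _ ha => h.exists_inv_smulF o e hoe ha }

theorem nearField_add (x y : α) :
    letI := h.nearField hn o e hoe
    x + y = h.sadd hn o x y := rfl

theorem nearField_mul (x y : α) :
    letI := h.nearField hn o e hoe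
    x * y = h.smulF o e hoe x y := rfl

theorem nearField_zero :
    letI := h.nearField hn o e hoe
    (0 : α) = o := rfl

end Sharp2

end Cfsg.Agent.Lib.Helper15
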